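import Mathlib
import Cfsg.Agent.Lib.Helper96.HallSymStmt

set_option autoImplicit false

namespace Cfsg.Agent.Lib.Helper11.HSB4A

open Equiv Cfsg.Agent.Lib.Helper96.HallSymStmt

theorem main : B4A := by
  intro m hm1 hm hm3
  by_contra hcon
  push_neg at hcon
  have hm2 : 2 ≤ m := by omega
  have hodd : ¬ 2 ∣ 2 ^ m + 1 := by
    intro h
    have h2 : 2 ∣ 2 ^ m := dvd_pow_self 2 (by omega)
    omega
  have hall : ∀ {d : ℕ}, d.Prime → d ∣ 2 ^ m + 1 → d = 3 := by
    intro d hd hdvd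
    by_contra h3
    have h2 : d ≠ 2 := by rintro rfl; exact hodd hdvd
    have hd2 := hd.two_le
    have h4 : d ≠ 4 := by rintro rfl; norm_num at hd
    have h5 : 5 ≤ d := by omega
    exact hcon d hd h5 hdvd
  have hpow := Nat.eq_prime_pow_of_unique_prime_dvd (by positivity : 2 ^ m + 1 ≠ 0) hall
  generalize (2 ^ m + 1).primeFactorsList.length = t at hpow
  rcases Nat.lt_or_ge m 4 with hlt | hge
  · have hm' : m = 2 := by omega
    subst hm'
    have h5 : 3 ^ t = 5 := by rw [← hpow]; norm_num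
    rcases Nat.lt_or_ge t 2 with h | h
    · interval_cases t <;> omega
    · have h9 : 3 ^ 2 ≤ 3 ^ t := Nat.pow_le_pow_right (by norm_num) h
      omega
  · have h16 : 16 ∣ 2 ^ m := by
      obtain ⟨k, rfl⟩ := Nat.exists_eq_add_of_le hge
      exact ⟨2 ^ k, by rw [pow_add]; norm_num⟩
    have h3t : 3 ^ t % 16 = 1 := by rw [← hpow]; omega
    have hdm := Nat.div_add_mod t 4
    have hr : t % 4 < 4 := Nat.mod_lt _ (by norm_num)
    have e : 3 ^ t = 81 ^ (t / 4) * 3 ^ (t % 4) := by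
      conv_lhs => rw [← hdm]
      rw [pow_add, pow_mul]; norm_num
    have h81 : 81 ^ (t / 4) % 16 = 1 := by
      rw [Nat.pow_mod]; norm_num
    have h81' : 81 ^ (t / 4) % 5 = 1 := by
      rw [Nat.pow_mod]; norm_num
    have hr0 : t % 4 = 0 := by
      rw [e, Nat.mul_mod, h81] at h3t
      generalize t % 4 = r at hr h3t
      interval_cases r <;> simp at h3t ⊢
    rw [hr0, pow_zero, mul_one] at e
    have h5 : (2 ^ m + 1) % 5 = 1 := by rw [hpow, e, h81']
    have h5' : 5 ∣ 2 ^ m := by omega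
    have h52 := Nat.Prime.dvd_of_dvd_pow (by norm_num : Nat.Prime 5) h5'
    omega

end Cfsg.Agent.Lib.Helper11.HSB4A
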