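import Mathlib
import Cfsg.Agent.Lib.Helper96.HallSymStmt

set_option autoImplicit false

namespace Cfsg.Agent.Lib.Helper11.HSFACT

open Equiv Cfsg.Agent.Lib.Helper96.HallSymStmt

theorem main : FACT := by
  intro a b ha
  induction b with
  | zero => simp
  | succ b ih =>
    obtain ⟨a', rfl⟩ : ∃ a', a = a' + 1 := ⟨a - 1, by omega⟩
    -- (a b + a)! = C(ab + a, a) * a! * (ab)!
    have h1 : ((a' + 1) * b + (a' + 1)).choose (a' + 1) * (a' + 1).factorial *
        ((a' + 1) * b).factorial = ((a' + 1) * b + (a' + 1)).factorial := by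
      have := Nat.choose_mul_factorial_mul_factorial
        (n := (a' + 1) * b + (a' + 1)) (k := a' + 1) (by omega)
      rwa [show (a' + 1) * b + (a' + 1) - (a' + 1) = (a' + 1) * b by omega] at this
    -- C(ab + a, a) = (b + 1) * C(ab + a - 1, a - 1)
    have h2 : ((a' + 1) * b + a' + 1) * ((a' + 1) * b + a').choose a'
        = ((a' + 1) * b + a' + 1).choose (a' + 1) * (a' + 1) :=
      Nat.add_one_mul_choose_eq ((a' + 1) * b + a') a'
    have h3 : ((a' + 1) * b + (a' + 1)).choose (a' + 1)
        = (b + 1) * ((a' + 1) * b + a').choose a' := by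
      have h2' : ((a' + 1) * b + (a' + 1)).choose (a' + 1) * (a' + 1)
          = ((b + 1) * ((a' + 1) * b + a').choose a') * (a' + 1) := by
        have e : (a' + 1) * b + (a' + 1) = (a' + 1) * b + a' + 1 := by ring
        rw [e, ← h2]; ring
      exact Nat.eq_of_mul_eq_mul_right (Nat.succ_pos a') h2'
    have e0 : (a' + 1) * (b + 1) = (a' + 1) * b + (a' + 1) := by ring
    rw [e0, ← h1, h3]
    obtain ⟨c, hc⟩ := ih
    rw [hc]
    refine ⟨((a' + 1) * b + a').choose a' * c, ?_⟩
    have e6 : (b + 1).factorial = (b + 1) * b.factorial := Nat.factorial_succ b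
    rw [e6]
    generalize (a' + 1).factorial = A
    generalize ((a' + 1) * b + a').choose a' = C
    generalize b.factorial = B
    rw [pow_succ]
    ring

end Cfsg.Agent.Lib.Helper11.HSFACT
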