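import Mathlib
import Cfsg.Agent.Lib.Helper96.HallSymStmt

set_option autoImplicit false

namespace Cfsg.Agent.Lib.Helper11.HSHIMG

open Equiv Cfsg.Agent.Lib.Helper96.HallSymStmt

theorem main : HIMG := by
  intro K Q _ _ _ π H ρ hρ hH
  refine ⟨?_, ?_⟩
  · intro p hp hdvd
    exact hH.1 p hp (hdvd.trans (Subgroup.card_map_dvd H ρ))
  · intro p hp hpπ hdvd
    exact hH.2 p hp hpπ (hdvd.trans (Subgroup.index_map_dvd H hρ))

end Cfsg.Agent.Lib.Helper11.HSHIMG
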