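import Mathlib
import Cfsg.Agent.Lib.Helper96.HallSymStmt

set_option autoImplicit false

namespace Cfsg.Agent.Lib.Helper11.HSSTAR2

open Equiv Cfsg.Agent.Lib.Helper96.HallSymStmt

theorem main : STAR2 := by
  intro p a b hp ha _hpa hb h k hk
  haveI := Fact.mk hp
  have hpk : 0 < p ^ k := pow_pos hp.pos k
  rcases Nat.eq_zero_or_pos b with hb0 | hb0
  · subst hb0
    rw [zero_mul]; exact hpk
  have hvb : padicValNat p b.factorial = 0 := by
    apply padicValNat.eq_zero_of_not_dvd
    intro hd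
    have := (hp.dvd_factorial).mp hd
    omega
  have hab : a ≤ a * b := Nat.le_mul_of_pos_right a hb0
  have hL1 : Nat.log p (a * b) < a * b + 2 :=
    lt_of_le_of_lt (Nat.log_le_self _ _) (by omega)
  have hL2 : Nat.log p a < a * b + 2 := by
    have h1 : Nat.log p a ≤ a := Nat.log_le_self _ _
    omega
  rw [padicValNat_factorial hL1, padicValNat_factorial hL2, hvb, add_zero, Finset.mul_sum] at h
  have hterm : ∀ i ∈ Finset.Ico 1 (a * b + 2), b * (a / p ^ i) ≤ a * b / p ^ i := by
    intro i _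
    have := Nat.mul_div_le_mul_div_assoc b a (p ^ i)
    rwa [mul_comm b a] at this
  have hsum : ∑ i ∈ Finset.Ico 1 (a * b + 2), b * (a / p ^ i)
      = ∑ i ∈ Finset.Ico 1 (a * b + 2), a * b / p ^ i :=
    le_antisymm (Finset.sum_le_sum hterm) h
  have heq := (Finset.sum_eq_sum_iff_of_le hterm).mp hsum
  have hmod : a % p ^ k ≤ a := Nat.mod_le _ _
  rcases Nat.lt_or_ge k (a * b + 2) with hkL | hkL
  · have hk' := heq k (Finset.mem_Ico.mpr ⟨hk, hkL⟩)
    have hdm := Nat.div_add_mod a (p ^ k)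
    have e : a * b = p ^ k * (a / p ^ k * b) + a % p ^ k * b := by
      conv_lhs => rw [← hdm]
      ring
    rw [e, Nat.mul_add_div hpk] at hk'
    have hz : a % p ^ k * b / p ^ k = 0 := by
      have e2 : b * (a / p ^ k) = a / p ^ k * b := mul_comm _ _
      omega
    rcases Nat.div_eq_zero_iff.mp hz with h0 | h0
    · omega
    · rwa [mul_comm] at h0
  · -- `p ^ k > a * b`
    have h2 : k < 2 ^ k := Nat.lt_two_pow_self
    have h3 : 2 ^ k ≤ p ^ k := Nat.pow_le_pow_left hp.two_le k
    have h4 : b * (a % p ^ k) ≤ b * a := Nat.mul_le_mul_left b hmod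
    have h5 : b * a = a * b := mul_comm _ _
    omega

end Cfsg.Agent.Lib.Helper11.HSSTAR2
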