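import Mathlib
import Cfsg.Agent.Lib.Helper96.HallSymStmt

set_option autoImplicit false

namespace Cfsg.Agent.Lib.Helper11.HSTDVD

open Equiv Cfsg.Agent.Lib.Helper96.HallSymStmt

theorem main : TDVD := by
  intro Ω _ _ H hpos hT
  classical
  obtain ⟨x⟩ : Nonempty Ω := Fintype.card_pos_iff.mp hpos
  have horb : MulAction.orbit ↥H x = Set.univ := by
    ext y
    simp only [Set.mem_univ, iff_true]
    obtain ⟨h, hh, hxy⟩ := hT x y
    exact ⟨⟨h, hh⟩, hxy⟩
  have h1 := MulAction.card_orbit_mul_card_stabilizer_eq_card_group ↥H x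
  have h2 : Fintype.card (MulAction.orbit ↥H x) = Fintype.card Ω := by
    rw [← Nat.card_eq_fintype_card, ← Nat.card_eq_fintype_card, horb]
    exact Nat.card_congr (Equiv.Set.univ Ω)
  rw [h2] at h1
  rw [Nat.card_eq_fintype_card, ← h1]
  exact Dvd.intro _ rfl

end Cfsg.Agent.Lib.Helper11.HSTDVD
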