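import Mathlib
import Cfsg.Agent.Lib.Helper96.HallSymStmt

set_option autoImplicit false

namespace Cfsg.Agent.Lib.Helper11.HSTL

open Equiv Cfsg.Agent.Lib.Helper96.HallSymStmt

theorem key (a b i j : ℕ) (hij : i + j ≤ a) :
    (a + b - i).choose (a - (i + j)) * ((a + b).descFactorial i * (b + j).descFactorial j)
      = (a + b).choose a * a.descFactorial (i + j) := by
  have hpos : 0 < (a - (i + j)).factorial * b.factorial :=
    Nat.mul_pos (Nat.factorial_pos _) (Nat.factorial_pos _)
  apply Nat.eq_of_mul_eq_mul_right hpos
  have e1 : (a + b - i).choose (a - (i + j)) * (a - (i + j)).factorial * (b + j).factorial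
      = (a + b - i).factorial := by
    have := Nat.choose_mul_factorial_mul_factorial (n := a + b - i) (k := a - (i + j)) (by omega)
    rwa [show a + b - i - (a - (i + j)) = b + j by omega] at this
  have e2 : (a + b - i).factorial * (a + b).descFactorial i = (a + b).factorial :=
    Nat.factorial_mul_descFactorial (by omega)
  have e3 : b.factorial * (b + j).descFactorial j = (b + j).factorial := by
    have := Nat.factorial_mul_descFactorial (n := b + j) (k := j) (by omega)
    rwa [show b + j - j = b by omega] at this
  have e4 : (a + b).choose a * a.factorial * b.factorial = (a + b).factorial := by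
    have := Nat.choose_mul_factorial_mul_factorial (n := a + b) (k := a) (by omega)
    rwa [show a + b - a = b by omega] at this
  have e5 : (a - (i + j)).factorial * a.descFactorial (i + j) = a.factorial :=
    Nat.factorial_mul_descFactorial hij
  have hL : (a + b - i).choose (a - (i + j)) *
      ((a + b).descFactorial i * (b + j).descFactorial j) *
      ((a - (i + j)).factorial * b.factorial) * (b + j).factorial
      = (a + b).factorial * (b + j).factorial := by
    calc _ = ((a + b - i).choose (a - (i + j)) * (a - (i + j)).factorial * (b + j).factorial) *
          (a + b).descFactorial i * (b.factorial * (b + j).descFactorial j) := by ring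
      _ = _ := by rw [e1, e2, e3]
  have hL' := Nat.eq_of_mul_eq_mul_right (Nat.factorial_pos _) hL
  rw [hL']
  calc (a + b).factorial
      = (a + b).choose a * ((a - (i + j)).factorial * a.descFactorial (i + j)) * b.factorial := by
        rw [e5, e4]
    _ = _ := by ring

theorem main : TL := by
  intro a b hNS i j hij N hN hdvd
  have hcop : Nat.Coprime N ((a + b).choose a) :=
    Nat.coprime_of_dvd (fun q hq hqN hqC => hNS q hq (hN q hq hqN) hqC)
  have h2 : N ∣ (a + b).choose a * a.descFactorial (i + j) := by
    rw [← key a b i j hij]
    exact Dvd.dvd.mul_left hdvd _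
  exact hcop.dvd_of_dvd_mul_left h2

end Cfsg.Agent.Lib.Helper11.HSTL
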