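import Mathlib
import Cfsg.Agent.Lib.Helper80.FTStmt
import Cfsg.Agent.Lib.Helper38.SLCard

/-!
# S3999 piece SL15 (helper11): `SL(2,5)` has order `120` and no element of order `15`.

Cayley-Hamilton by hand: `A * A = t • A - 1`, `t` the trace; for each of the five values of `t`
a power `A ^ n = 1` with `n ∈ {4, 6, 5, 10, 3}`.
-/

set_option autoImplicit false

namespace Cfsg.Agent.Lib.Helper11.FTSL15

open Matrix

section ring

variable {R : Type*} [Ring R]

theorem one_add_pow_of_sq_zero (N : R) (hN : N * N = 0) (k : ℕ) :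
    (1 + N) ^ k = 1 + k • N := by
  induction k with
  | zero => simp
  | succ k ih =>
    rw [pow_succ, ih, succ_nsmul, mul_add, mul_one, add_mul, one_mul, smul_mul_assoc, hN,
      smul_zero, add_zero]
    abel

end ring

abbrev M2 := Matrix (Fin 2) (Fin 2) (ZMod 5)

theorem five_smul (N : M2) : (5 : ℕ) • N = 0 := by
  ext i j
  simp only [Matrix.smul_apply, Matrix.zero_apply, nsmul_eq_mul]
  have : ((5 : ℕ) : ZMod 5) = 0 := by decide
  rw [this, zero_mul]

theorem zsmul_eq (n : ℕ) (N : M2) : ((n : ZMod 5)) • N = n • N := by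
  ext i j
  simp only [Matrix.smul_apply, nsmul_eq_mul, smul_eq_mul]

/-- Cayley-Hamilton for `2 × 2` matrices of determinant one -/
theorem cayley (A : M2) (hdet : A.det = 1) :
    A * A = (A 0 0 + A 1 1) • A - 1 := by
  rw [Matrix.det_fin_two] at hdet
  ext i j
  fin_cases i <;> fin_cases j <;>
    simp [Matrix.mul_apply, Fin.sum_univ_two, Matrix.one_apply] <;>
    first
      | linear_combination hdet
      | linear_combination (-1 : ZMod 5) * hdet
      | ring

theorem trace_cases (t : ZMod 5) :
    t = ((0 : ℕ) : ZMod 5) ∨ t = ((1 : ℕ) : ZMod 5) ∨ t = ((2 : ℕ) : ZMod 5) ∨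
      t = ((3 : ℕ) : ZMod 5) ∨ t = ((4 : ℕ) : ZMod 5) := by
  revert t
  decide

/-- a power of `A` is one, with exponent in `{4, 6, 5, 10, 3}` -/
theorem pow_eq_one (A : M2) (hdet : A.det = 1) :
    A ^ 4 = 1 ∨ A ^ 6 = 1 ∨ A ^ 5 = 1 ∨ A ^ 10 = 1 ∨ A ^ 3 = 1 := by
  have hc := cayley A hdet
  rcases trace_cases (A 0 0 + A 1 1) with ht | ht | ht | ht | ht <;>
    rw [ht, zsmul_eq] at hc
  · -- t = 0
    left
    have h2 : A * A = -1 := by
      rw [hc, zero_smul, zero_sub]
    have : A ^ 4 = (A * A) * (A * A) := by noncomm_ring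
    rw [this, h2]
    simp
  · -- t = 1
    right; left
    have h2 : A * A = A - 1 := by
      rw [hc, one_smul]
    have h3 : A * A * A = -1 := by
      rw [h2, sub_mul, one_mul, h2]
      abel
    have : A ^ 6 = (A * A * A) * (A * A * A) := by noncomm_ring
    rw [this, h3]
    simp
  · -- t = 2
    right; right; left
    have hN : (A - 1) * (A - 1) = 0 := by
      have : (A - 1) * (A - 1) = A * A - (2 : ℕ) • A + 1 := by noncomm_ring
      rw [this, hc]
      abel
    have h := one_add_pow_of_sq_zero (A - 1) hN 5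
    rw [five_smul, add_zero, add_sub_cancel] at h
    exact h
  · -- t = 3
    right; right; right; left
    have hN : (-A - 1) * (-A - 1) = 0 := by
      have : (-A - 1) * (-A - 1) = A * A + (2 : ℕ) • A + 1 := by noncomm_ring
      rw [this, hc]
      have : (3 : ℕ) • A - 1 + (2 : ℕ) • A + 1 = (5 : ℕ) • A := by abel
      rw [this, five_smul]
    have h := one_add_pow_of_sq_zero (-A - 1) hN 5
    rw [five_smul, add_zero, add_sub_cancel] at h
    have : A ^ 10 = ((-A) ^ 5) * ((-A) ^ 5) := by noncomm_ring
    rw [this, h, one_mul]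
  · -- t = 4
    right; right; right; right
    have h2 : A * A = -A - 1 := by
      rw [hc]
      have : (4 : ℕ) • A - 1 - (-A - 1) = (5 : ℕ) • A := by abel
      have h5 := five_smul A
      rw [← this] at h5
      exact sub_eq_zero.mp h5
    have : A ^ 3 = A * A * A := by noncomm_ring
    rw [this, h2, sub_mul, one_mul, neg_mul, h2]
    abel

theorem main : Cfsg.Agent.Lib.Helper80.FTStmt.SL15 := by
  refine ⟨?_, ?_⟩
  · have : Fact (Nat.Prime 5) := ⟨by norm_num⟩
    have h := Cfsg.Agent.Lib.Helper38.SLCard.card_SL2 (F := ZMod 5)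
    rw [ZMod.card 5] at h
    exact h
  · intro s hs
    have key : ∀ n : ℕ, ((s : M2)) ^ n = 1 → s ^ n = 1 := by
      intro n hn
      apply Subtype.ext
      rw [Matrix.SpecialLinearGroup.coe_pow, hn]
      rfl
    rcases pow_eq_one (s : M2) s.2 with h | h | h | h | h
    · have := orderOf_dvd_of_pow_eq_one (key 4 h)
      rw [hs] at this
      omega
    · have := orderOf_dvd_of_pow_eq_one (key 6 h)
      rw [hs] at this
      omega
    · have := orderOf_dvd_of_pow_eq_one (key 5 h)
      rw [hs] at this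
      omega
    · have := orderOf_dvd_of_pow_eq_one (key 10 h)
      rw [hs] at this
      omega
    · have := orderOf_dvd_of_pow_eq_one (key 3 h)
      rw [hs] at this
      omega

end Cfsg.Agent.Lib.Helper11.FTSL15
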