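import Mathlib
import Cfsg.Agent.Lib.Helper96.HallAltStmt

set_option autoImplicit false

namespace Cfsg.Agent.Lib.Helper11.HAGC3

open Equiv Cfsg.Agent.Lib.Helper96.HallSymStmt Cfsg.Agent.Lib.Helper96.HallAltStmt

theorem main : Cfsg.Agent.Lib.Helper96.HallAltStmt.GC3 := by
  intro Ω _ _ ι f M L hPF hL m hm l hl
  rw [hL] at hl ⊢
  intro i
  by_cases hex : ∃ x₀ : Ω, f x₀ = i
  · obtain ⟨x₀, hx₀⟩ := hex
    have hminv : m⁻¹ ∈ M := M.inv_mem hm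
    obtain ⟨g, hg, hgl⟩ := hl (f (m⁻¹ x₀))
    have hgM : g ∈ M := hg.1
    have hgF : ∀ y, f (g y) = f y := hg.2
    refine ⟨m * g * m⁻¹, ⟨M.mul_mem (M.mul_mem hm hgM) hminv, ?_⟩, ?_⟩
    · intro x
      show f ((m * g * m⁻¹) x) = f x
      have h1 : f (g (m⁻¹ x)) = f (m⁻¹ x) := hgF _
      have h2 := hPF m hm _ _ h1
      have e1 : (m * g * m⁻¹) x = m (g (m⁻¹ x)) := rfl
      have e2 : m (m⁻¹ x) = x := by
        rw [← Perm.mul_apply, mul_inv_cancel, Perm.one_apply]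
      rw [e1, h2, e2]
    · intro x hx
      have h1 : f (m⁻¹ x) = f (m⁻¹ x₀) := hPF m⁻¹ hminv x x₀ (by rw [hx, hx₀])
      have h2 := hgl (m⁻¹ x) h1
      show m (l (m⁻¹ x)) = m (g (m⁻¹ x))
      rw [h2]
  · refine ⟨1, Subgroup.one_mem _, ?_⟩
    intro x hx
    exact absurd ⟨x, hx⟩ hex

end Cfsg.Agent.Lib.Helper11.HAGC3
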