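import Mathlib
import Cfsg.Agent.Lib.Helper96.HallAltStmt

set_option autoImplicit false

namespace Cfsg.Agent.Lib.Helper11.HAORB2

open Equiv Cfsg.Agent.Lib.Helper96.HallSymStmt Cfsg.Agent.Lib.Helper96.HallAltStmt

theorem main : Cfsg.Agent.Lib.Helper96.HallAltStmt.ORB2 := by
  intro Ω _ _ M hT hfix
  classical
  unfold Cfsg.Agent.Lib.Helper96.HallSymStmt.Trans at hT
  push_neg at hT
  obtain ⟨x, y, hxy⟩ := hT
  -- the orbit of `x`
  have hinv : ∀ g ∈ M, ∀ z : Ω, (∃ h ∈ M, h x = z) ↔ (∃ h ∈ M, h x = g z) := by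
    intro g hg z
    constructor
    · rintro ⟨h, hh, rfl⟩
      exact ⟨g * h, M.mul_mem hg hh, rfl⟩
    · rintro ⟨h, hh, hz⟩
      refine ⟨g⁻¹ * h, M.mul_mem (M.inv_mem hg) hh, ?_⟩
      show g⁻¹ (h x) = z
      rw [hz, ← Perm.mul_apply, inv_mul_cancel, Perm.one_apply]
  refine ⟨fun z => decide (∃ h ∈ M, h x = z), ?_, ?_⟩
  · intro g hg
    rw [mem_FP]
    intro z
    show decide (∃ h ∈ M, h x = g z) = decide (∃ h ∈ M, h x = z)
    rw [decide_eq_decide]
    exact (hinv g hg z).symm
  · intro i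
    have hfin : ∀ s : Set Ω, s.Finite := fun s => Set.toFinite s
    cases i with
    | true =>
      obtain ⟨g, hg, hgx⟩ := hfix x
      have h1 := (Set.one_lt_ncard_iff (hfin ((fun z => decide (∃ h ∈ M, h x = z)) ⁻¹' {true}))).mpr
        ⟨x, g x, by
          show decide (∃ h ∈ M, h x = x) = true
          rw [decide_eq_true_iff]
          exact ⟨1, M.one_mem, rfl⟩, by
          show decide (∃ h ∈ M, h x = g x) = true
          rw [decide_eq_true_iff]
          exact ⟨g, hg, rfl⟩, fun h => hgx h.symm⟩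
      omega
    | false =>
      obtain ⟨g, hg, hgy⟩ := hfix y
      have hy : ¬ ∃ h ∈ M, h x = y := by
        rintro ⟨h, hh, hhy⟩
        exact hxy h hh hhy
      have h1 := (Set.one_lt_ncard_iff (hfin ((fun z => decide (∃ h ∈ M, h x = z)) ⁻¹' {false}))).mpr
        ⟨y, g y, by
          show decide (∃ h ∈ M, h x = y) = false
          rw [decide_eq_false_iff_not]
          exact hy, by
          show decide (∃ h ∈ M, h x = g y) = false
          rw [decide_eq_false_iff_not]
          intro h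
          exact hy ((hinv g hg y).mpr h), fun h => hgy h.symm⟩
      omega

end Cfsg.Agent.Lib.Helper11.HAORB2
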