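import Mathlib
import Cfsg.Agent.Lib.Helper96.HallAltStmt

set_option autoImplicit false

namespace Cfsg.Agent.Lib.Helper11.HATRB

open Equiv Cfsg.Agent.Lib.Helper96.HallSymStmt Cfsg.Agent.Lib.Helper96.HallAltStmt

theorem main : Cfsg.Agent.Lib.Helper96.HallAltStmt.TRB := by
  intro Ω _ _ π x M' hM' hnot
  refine ⟨?_, ?_⟩
  · intro p hp hdvd
    apply hM' p hp
    have e : Nat.card (M'.map (Perm.ofSubtype : Perm {y : Ω // y ≠ x} →* Perm Ω)) = Nat.card M' :=
      Nat.card_congr (M'.equivMapOfInjective _ Perm.ofSubtype_injective).toEquiv.symm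
    rwa [e] at hdvd
  · intro hle
    apply hnot
    intro m hm
    have h1 : (Perm.ofSubtype : Perm {y : Ω // y ≠ x} →* Perm Ω) m ∈ alternatingGroup Ω :=
      hle ⟨m, hm, rfl⟩
    rw [Perm.mem_alternatingGroup] at h1 ⊢
    rw [← h1, Perm.sign_ofSubtype]

end Cfsg.Agent.Lib.Helper11.HATRB
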