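import Mathlib
import Cfsg.Agent.Lib.Helper96.HallAltStmt

set_option autoImplicit false

namespace Cfsg.Agent.Lib.Helper11.HATRF

open Equiv Cfsg.Agent.Lib.Helper96.HallSymStmt Cfsg.Agent.Lib.Helper96.HallAltStmt

theorem exists_ofSubtype {Ω : Type} [Fintype Ω] [DecidableEq Ω] (x : Ω) (g : Perm Ω)
    (hg : g x = x) :
    ∃ g' : Perm {y : Ω // y ≠ x}, (Perm.ofSubtype : Perm {y : Ω // y ≠ x} →* Perm Ω) g' = g := by
  have h₁ : ∀ y : Ω, g y ≠ x ↔ y ≠ x := by
    intro y
    constructor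
    · intro h hy
      apply h
      rw [hy, hg]
    · intro h hy
      apply h
      apply g.injective
      rw [hy, hg]
  have h₂ : ∀ y : Ω, g y ≠ y → y ≠ x := by
    intro y h hy
    apply h
    rw [hy, hg]
  exact ⟨g.subtypePerm h₁, Perm.ofSubtype_subtypePerm h₁ h₂⟩

theorem map_alt {Ω : Type} [Fintype Ω] [DecidableEq Ω] (x : Ω) :
    (alternatingGroup {y : Ω // y ≠ x}).map
      (Perm.ofSubtype : Perm {y : Ω // y ≠ x} →* Perm Ω)
      = alternatingGroup Ω ⊓ MulAction.stabilizer (Perm Ω) x := by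
  ext g
  constructor
  · rintro ⟨a, ha, rfl⟩
    refine Subgroup.mem_inf.mpr ⟨?_, ?_⟩
    · have ha' : Perm.sign a = 1 := Perm.mem_alternatingGroup.mp ha
      rw [Perm.mem_alternatingGroup, Perm.sign_ofSubtype]
      exact ha'
    · rw [MulAction.mem_stabilizer_iff]
      exact Perm.ofSubtype_apply_of_not_mem a (by simp)
  · intro hg
    rw [Subgroup.mem_inf] at hg
    obtain ⟨g', rfl⟩ := exists_ofSubtype x g (MulAction.mem_stabilizer_iff.mp hg.2)
    refine ⟨g', ?_, rfl⟩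
    have h1 := Perm.mem_alternatingGroup.mp hg.1
    rw [Perm.sign_ofSubtype] at h1
    exact Perm.mem_alternatingGroup.mpr h1

theorem main : Cfsg.Agent.Lib.Helper96.HallAltStmt.TRF := by
  intro Ω _ _ π M x hM
  obtain ⟨hMle, hMpi, hMidx⟩ := hM
  have hmap : (M.comap (Perm.ofSubtype : Perm {y : Ω // y ≠ x} →* Perm Ω)).map
      (Perm.ofSubtype : Perm {y : Ω // y ≠ x} →* Perm Ω) = M := by
    rw [Subgroup.map_comap_eq, inf_eq_right]
    intro g hg
    have hg' := hMle hg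
    rw [Subgroup.mem_inf] at hg'
    obtain ⟨g', rfl⟩ := exists_ofSubtype x g (MulAction.mem_stabilizer_iff.mp hg'.2)
    exact ⟨g', rfl⟩
  refine ⟨M.comap (Perm.ofSubtype : Perm {y : Ω // y ≠ x} →* Perm Ω), ⟨?_, ?_, ?_⟩, hmap⟩
  · intro a ha
    have h1 : (Perm.ofSubtype : Perm {y : Ω // y ≠ x} →* Perm Ω) a ∈ M := ha
    have h2 := (Subgroup.mem_inf.mp (hMle h1)).1
    rw [Perm.mem_alternatingGroup, Perm.sign_ofSubtype] at h2
    exact Perm.mem_alternatingGroup.mpr h2
  · intro p hp hdvd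
    apply hMpi p hp
    have e : Nat.card ((M.comap (Perm.ofSubtype : Perm {y : Ω // y ≠ x} →* Perm Ω)).map
        (Perm.ofSubtype : Perm {y : Ω // y ≠ x} →* Perm Ω))
        = Nat.card (M.comap (Perm.ofSubtype : Perm {y : Ω // y ≠ x} →* Perm Ω)) :=
      Nat.card_congr (Subgroup.equivMapOfInjective _ _ Perm.ofSubtype_injective).toEquiv.symm
    rw [hmap] at e
    rw [e]; exact hdvd
  · intro p hp hpπ hdvd
    apply hMidx p hp hpπ
    have e := Subgroup.relIndex_map_map_of_injective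
      (M.comap (Perm.ofSubtype : Perm {y : Ω // y ≠ x} →* Perm Ω))
      (alternatingGroup {y : Ω // y ≠ x})
      (Perm.ofSubtype_injective (p := fun y : Ω => y ≠ x))
    rw [hmap, map_alt] at e
    rw [e]; exact hdvd

end Cfsg.Agent.Lib.Helper11.HATRF
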