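import Mathlib
import Cfsg.Agent.Lib.Helper17.CentFix
import Cfsg.Agent.Lib.Helper17.FixedPoints
import Cfsg.Agent.Lib.Helper17.FixCount
import Cfsg.Agent.Lib.Helper17.Parity
import Cfsg.Agent.S0992

/-!
# No simple group of order 1980 = 2^2 * 3^2 * 5 * 11
-/

set_option autoImplicit false

namespace Cfsg.Agent.Lib.Helper11.O1980

open Subgroup MulAction
open Cfsg.Agent.Lib.Helper17.Sylow Cfsg.Agent.Lib.Helper17.Sylow2
open Cfsg.Agent.Lib.Helper17.CentFix Cfsg.Agent.Lib.Helper17.Commuting
open Cfsg.Agent.Lib.Helper17.FixedPoints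

theorem key11 : ∀ n ∈ Nat.divisors 180, n % 11 = 1 → n ≠ 1 → n = 12 ∨ n = 45 := by
  decide +kernel

theorem keyr10 : ∀ r ∈ Nat.divisors 10, r = 1 ∨ r = 2 ∨ r = 5 ∨ r = 10 := by
  decide

/-- If the normalizer of a Klein four-subgroup `T` fixes an involution of `T`, then `N(T)/C(T)`
cannot have order 3. -/
theorem klein_contra {G : Type*} [Group G] (T : Subgroup G) (hK : IsKleinFour ↥T)
    (u : G) (huT : u ∈ T) (hu1 : u ≠ 1)
    (hfix : ∀ g ∈ normalizer (T : Set G), g * u * g⁻¹ = u)
    (hrel : (centralizer (T : Set G)).relIndex (normalizer (T : Set G)) = 3) : False := by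
  have hker := T.normalizerMonoidHom_ker
  have hnorm : ((centralizer (T : Set G)).subgroupOf (normalizer (T : Set G))).Normal := by
    rw [← hker]; infer_instance
  have hle : normalizer (T : Set G) ≤ centralizer (T : Set G) := by
    intro g hg
    have h3 : g ^ 3 ∈ centralizer (T : Set G) := by
      have := Subgroup.pow_index_mem
        ((centralizer (T : Set G)).subgroupOf (normalizer (T : Set G))) ⟨g, hg⟩
      have hidx : ((centralizer (T : Set G)).subgroupOf (normalizer (T : Set G))).index = 3 := hrel
      rw [hidx, mem_subgroupOf] at this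
      simpa using this
    have hgu : g * u = u * g := by
      have := hfix g hg
      rwa [mul_inv_eq_iff_eq_mul] at this
    have huu : u * u = 1 := by
      have := hK.mul_self (⟨u, huT⟩ : ↥T)
      exact congrArg Subtype.val this
    have h2 : g ^ 2 ∈ centralizer (T : Set G) := by
      rw [mem_centralizer_iff]
      intro t ht
      have hw : g * t * g⁻¹ ∈ T := (mem_normalizer_iff.mp hg t).mp ht
      by_cases hwt : g * t * g⁻¹ = t
      · have hgt : g * t = t * g := by rwa [mul_inv_eq_iff_eq_mul] at hwt
        rw [pow_two, ← mul_assoc, ← hgt, mul_assoc, ← hgt, mul_assoc]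
      · by_cases ht1 : t = 1
        · subst ht1; simp
        by_cases htu : t = u
        · subst htu
          rw [pow_two, ← mul_assoc, ← hgu, mul_assoc, ← hgu, mul_assoc]
        have hwe : (⟨g * t * g⁻¹, hw⟩ : ↥T) = ⟨u, huT⟩ * ⟨t, ht⟩ := by
          refine hK.eq_mul_of_ne_all ?_ ?_ ?_ ?_ ?_ ?_
          · intro h; exact hu1 (congrArg Subtype.val h)
          · intro h; exact ht1 (congrArg Subtype.val h)
          · intro h; exact htu (congrArg Subtype.val h).symm
          · intro h
            have h' : g * t * g⁻¹ = 1 := congrArg Subtype.val h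
            apply ht1
            have : g * t = g := by rw [mul_inv_eq_iff_eq_mul] at h'; simpa using h'
            simpa using this
          · intro h
            have h' : g * t * g⁻¹ = u := congrArg Subtype.val h
            apply htu
            have h'' : g * t = u * g := by rwa [mul_inv_eq_iff_eq_mul] at h'
            rw [← hgu] at h''
            exact mul_left_cancel h''
          · intro h; exact hwt (congrArg Subtype.val h)
        have hwe' : g * t * g⁻¹ = u * t := congrArg Subtype.val hwe
        have hgt : g * t = u * t * g := by rwa [mul_inv_eq_iff_eq_mul] at hwe'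
        calc t * g ^ 2 = u * u * t * g ^ 2 := by rw [huu, one_mul]
          _ = u * (u * t * g) * g := by rw [pow_two]; group
          _ = u * (g * t) * g := by rw [hgt]
          _ = (u * g) * t * g := by group
          _ = g * u * t * g := by rw [hgu]
          _ = g * (u * t * g) := by group
          _ = g * (g * t) := by rw [hgt]
          _ = g ^ 2 * t := by rw [pow_two]; group
    have : g = g ^ 3 * (g ^ 2)⁻¹ := by group
    rw [this]
    exact mul_mem h3 (inv_mem h2)
  have := relIndex_eq_one.mpr hle
  omega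

/-- No finite simple group has order 1980 = 2^2 * 3^2 * 5 * 11. -/
theorem no_simple {G : Type*} [Group G] [Finite G] [IsSimpleGroup G] : Nat.card G ≠ 1980 := by
  intro h
  have hG : ¬ IsMulCommutative G := not_comm_of_not_prime (by rw [h]; norm_num)
  have : Fact (Nat.Prime 11) := ⟨by norm_num⟩
  have : Fact (Nat.Prime 3) := ⟨by norm_num⟩
  have : Fact (Nat.Prime 2) := ⟨by norm_num⟩
  have h11 : 11 ∣ Nat.card G := by rw [h]; norm_num
  have hd : Nat.card (Sylow 11 G) ∣ 180 :=
    card_sylow_dvd (k := 1) (h.trans (by norm_num)) (by norm_num)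
  have hm := card_sylow_mod (G := G) 11
  have hne := card_sylow_ne_one hG h11
  obtain ⟨P⟩ : Nonempty (Sylow 11 G) := inferInstance
  have hP : Nat.card (P : Subgroup G) = 11 := by
    simpa using card_sylow_subgroup (k := 1) (m := 180) (h.trans (by norm_num)) (by norm_num) P
  have hNn := card_normalizer_mul_card_sylow P
  rw [h] at hNn
  have hidx : (normalizer ((P : Subgroup G) : Set G)).index = Nat.card (Sylow 11 G) :=
    (P.card_eq_index_normalizer).symm
  obtain ⟨r, hr1, hr10, hCr, hC11⟩ := sylow_prime_centralizer hG P hP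
  have hr := keyr10 r (Nat.mem_divisors.mpr ⟨hr10, by norm_num⟩)
  rcases key11 _ (Nat.mem_divisors.mpr ⟨hd, by norm_num⟩) hm hne with hn | hn
  · -- n = 12, |N| = 165, r = 5, |C| = 33
    rw [hn] at hNn
    have hC3 : 3 ∣ Nat.card (centralizer ((P : Subgroup G) : Set G)) := by
      rcases hr with rfl | rfl | rfl | rfl <;> omega
    obtain ⟨u, huC, hu⟩ :=
      exists_mem_orderOf_eq_prime (centralizer ((P : Subgroup G) : Set G)) 3 hC3
    have h1 := card_fixedBy_mod_of_mem_centralizer P hP u huC
    have hu3 : u ^ (3 ^ 1) = 1 := by rw [pow_one, ← hu]; exact pow_orderOf_eq_one u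
    have h2 := card_modEq_card_fixedBy
      (X := G ⧸ normalizer ((P : Subgroup G) : Set G)) u hu3
    have hu1 : u ≠ 1 := by
      rintro rfl
      rw [orderOf_one] at hu
      omega
    have h3 := card_fixedBy_lt_index _ (normalizer_sylow_ne_top hG h11 P) u hu1
    have hX : Nat.card (G ⧸ normalizer ((P : Subgroup G) : Set G)) = 12 := hidx.trans hn
    rw [hidx, hn] at h3
    rw [hX, Nat.ModEq] at h2
    omega
  · -- n = 45, |N| = 44, r = 2, |C| = 22
    rw [hn] at hNn
    have hN44 : Nat.card (normalizer ((P : Subgroup G) : Set G)) = 44 := by omega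
    have hr2 : r = 2 ∧ Nat.card (centralizer ((P : Subgroup G) : Set G)) = 22 := by
      rcases hr with rfl | rfl | rfl | rfl <;> omega
    obtain ⟨rfl, hC22⟩ := hr2
    obtain ⟨u, huC, hu⟩ :=
      exists_mem_orderOf_eq_prime (centralizer ((P : Subgroup G) : Set G)) 2
        (by rw [hC22]; norm_num)
    have hu2 : u ^ 2 = 1 := by rw [← hu]; exact pow_orderOf_eq_one u
    have hu1 : u ≠ 1 := by
      rintro rfl
      rw [orderOf_one] at hu
      omega
    have h1 := card_fixedBy_mod_of_mem_centralizer P hP u huC
    obtain ⟨k4, hk4⟩ := Cfsg.Agent.Lib.Helper17.Parity.involution_moved hG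
      (X := G ⧸ normalizer ((P : Subgroup G) : Set G)) u hu2
    have h3 := card_fixedBy_lt_index _ (normalizer_sylow_ne_top hG h11 P) u hu1
    have hX : Nat.card (G ⧸ normalizer ((P : Subgroup G) : Set G)) = 45 := hidx.trans hn
    rw [hidx, hn] at h3
    rw [hX] at hk4
    have hF : Nat.card (fixedBy (G ⧸ normalizer ((P : Subgroup G) : Set G)) u) = 1 := by omega
    have hfc := Cfsg.Agent.Lib.Helper17.FixCount.card_mul_card_fixedBy
      (normalizer ((P : Subgroup G) : Set G)) u
    rw [hN44, hF] at hfc
    -- a Sylow 2-subgroup containing u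
    have hpu : IsPGroup 2 (zpowers u) :=
      IsPGroup.of_card (n := 1) (by rw [Nat.card_zpowers, hu]; rfl)
    obtain ⟨T, hT⟩ := hpu.exists_le_sylow
    have huT : u ∈ (T : Subgroup G) := hT (mem_zpowers u)
    obtain ⟨hK, hrel⟩ := Cfsg.Agent.S0992.result hG (by rw [h]; decide) (by rw [h]; norm_num) T
    have hTle : (T : Subgroup G) ≤ centralizer ({u} : Set G) := by
      intro t ht
      rw [mem_centralizer_iff]
      intro y hy
      rw [Set.mem_singleton_iff.mp hy]
      have := mul_comm_of_exponent_two (G := ↥(T : Subgroup G)) hK.exponent_two ⟨u, huT⟩ ⟨t, ht⟩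
      exact congrArg Subtype.val this
    have hPle : (P : Subgroup G) ≤ centralizer ({u} : Set G) := by
      intro x hx
      rw [mem_centralizer_iff]
      intro y hy
      rw [Set.mem_singleton_iff.mp hy]
      exact ((mem_centralizer_iff.mp huC) x hx).symm
    have hT4 : Nat.card (T : Subgroup G) = 4 := hK.card_four
    have h4 : 4 ∣ Nat.card (centralizer ({u} : Set G)) := hT4 ▸ Subgroup.card_dvd_of_le hTle
    have h11c : 11 ∣ Nat.card (centralizer ({u} : Set G)) := hP ▸ Subgroup.card_dvd_of_le hPle
    have h44 : 44 ∣ Nat.card (centralizer ({u} : Set G)) :=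
      Nat.Coprime.mul_dvd_of_dvd_of_dvd (by norm_num : Nat.Coprime 4 11) h4 h11c
    have hCN : centralizer ((P : Subgroup G) : Set G) ≤ normalizer ((P : Subgroup G) : Set G) :=
      centralizer_le_normalizer _
    have huN : u ∈ normalizer ((P : Subgroup G) : Set G) := hCN huC
    have hc : Nat.card (centralizer ({u} : Set G)) = 44 ∧
        {s : G | s ∈ normalizer ((P : Subgroup G) : Set G) ∧ ∃ g : G, g * u * g⁻¹ = s}.ncard = 1 := by
      obtain ⟨e, he⟩ := h44
      generalize Nat.card (centralizer ({u} : Set G)) = c at hfc he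
      generalize {s : G | s ∈ normalizer ((P : Subgroup G) : Set G) ∧
        ∃ g : G, g * u * g⁻¹ = s}.ncard = k at hfc
      subst he
      have : e * k = 1 := by nlinarith
      have he1 : e = 1 := Nat.eq_one_of_mul_eq_one_right this
      subst he1
      omega
    obtain ⟨hc44, hk1⟩ := hc
    obtain ⟨a, ha⟩ := Set.ncard_eq_one.mp hk1
    have hall : ∀ s : G, s ∈ normalizer ((P : Subgroup G) : Set G) → (∃ g : G, g * u * g⁻¹ = s) →
        s = u := by
      intro s hs1 hs2
      have hsS : s ∈ {s : G | s ∈ normalizer ((P : Subgroup G) : Set G) ∧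
          ∃ g : G, g * u * g⁻¹ = s} := ⟨hs1, hs2⟩
      have huS : u ∈ {s : G | s ∈ normalizer ((P : Subgroup G) : Set G) ∧
          ∃ g : G, g * u * g⁻¹ = s} := ⟨huN, 1, by simp⟩
      rw [ha] at hsS huS
      rw [Set.mem_singleton_iff] at hsS huS
      rw [hsS, huS]
    have hNle : normalizer ((P : Subgroup G) : Set G) ≤ centralizer ({u} : Set G) := by
      intro n hn'
      have h' : n * u * n⁻¹ = u :=
        hall _ (mul_mem (mul_mem hn' huN) (inv_mem hn')) ⟨n, rfl⟩
      rw [mem_centralizer_iff]
      intro y hy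
      rw [Set.mem_singleton_iff.mp hy]
      rw [mul_inv_eq_iff_eq_mul] at h'
      exact h'.symm
    have hNeq : normalizer ((P : Subgroup G) : Set G) = centralizer ({u} : Set G) :=
      Subgroup.eq_of_le_of_card_ge hNle (by rw [hN44, hc44])
    have hTN : (T : Subgroup G) ≤ normalizer ((P : Subgroup G) : Set G) := hNeq ▸ hTle
    have hfix : ∀ g ∈ normalizer (((T : Subgroup G)) : Set G), g * u * g⁻¹ = u := by
      intro g hg
      exact hall _ (hTN ((mem_normalizer_iff.mp hg u).mp huT)) ⟨g, rfl⟩
    exact klein_contra (T : Subgroup G) hK u huT hu1 hfix hrel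

end Cfsg.Agent.Lib.Helper11.O1980
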