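import Cfsg.Agent.Lib.Helper37.OrtStmt

set_option autoImplicit false

namespace Cfsg.Agent.Lib.Helper11.OrtCAYLEY

open Cfsg
open Cfsg.Agent.Lib.Helper37.OrtStmt
open scoped Kronecker MatrixGroups Matrix

universe u

theorem main (hP : Cfsg.Agent.Lib.Helper37.OrtStmt.Pfaff.{u}) :
    Cfsg.Agent.Lib.Helper37.OrtStmt.Cayley.{u} := by
  intro F _ h2 n S₁ S₂ x hS₁ hd₁ hS₂ hd₂ hx₁ hx₂ hm hp
  have key : ∀ S : Matrix (Fin n) (Fin n) F, Sᵀ = S → S.det ≠ 0 → xᵀ * S * x = S →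
      ∃ μ : F, μ ≠ 0 ∧ (x + 1).det * S.det * (x - 1).det = μ ^ 2 := by
    intro S hS hd hx
    set K := (x + 1)ᵀ * S * (x - 1) with hK
    have hKt : Kᵀ = -K := by
      rw [hK]
      simp only [Matrix.transpose_mul, Matrix.transpose_sub, Matrix.transpose_add,
        Matrix.transpose_one, Matrix.transpose_transpose, hS]
      have h1 : (xᵀ - 1) * (S * (x + 1)) = xᵀ * S * x + xᵀ * S - S * x - S := by
        noncomm_ring
      have h2 : (xᵀ + 1) * S * (x - 1) = xᵀ * S * x - xᵀ * S + S * x - S := by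
        noncomm_ring
      rw [h1, h2, hx]; abel
    have hdet : K.det = (x + 1).det * S.det * (x - 1).det := by
      rw [hK, Matrix.det_mul, Matrix.det_mul, Matrix.det_transpose]
    have hKd : K.det ≠ 0 := by rw [hdet]; exact mul_ne_zero (mul_ne_zero hp hd) hm
    obtain ⟨μ, hμ⟩ := hP F h2 n K hKt hKd
    refine ⟨μ, ?_, by rw [← hdet, hμ]⟩
    rintro rfl
    apply hKd; rw [hμ]; ring
  obtain ⟨μ₁, hμ₁, e₁⟩ := key S₁ hS₁ hd₁ hx₁
  obtain ⟨μ₂, hμ₂, e₂⟩ := key S₂ hS₂ hd₂ hx₂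
  refine ⟨μ₁ / μ₂, div_ne_zero hμ₁ hμ₂, ?_⟩
  have hd : (x + 1).det * (x - 1).det ≠ 0 := mul_ne_zero hp hm
  have h3 : S₁.det * μ₂ ^ 2 = S₂.det * μ₁ ^ 2 := by
    apply mul_left_cancel₀ hd
    rw [← e₁, ← e₂]; ring
  rw [div_pow, ← mul_div_assoc, eq_div_iff (pow_ne_zero 2 hμ₂)]
  exact h3

end Cfsg.Agent.Lib.Helper11.OrtCAYLEY
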