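import Cfsg.Agent.Lib.Helper37.OrtStmt

set_option autoImplicit false

namespace Cfsg.Agent.Lib.Helper11.OrtIDXO

open Cfsg
open Cfsg.Agent.Lib.Helper37.OrtStmt
open scoped Kronecker MatrixGroups Matrix

universe u

theorem main : Cfsg.Agent.Lib.Helper37.OrtStmt.IdxO.{u} := by
  intro F _ _ n Q S hS hQ r hr hr2 k hk hle hdvd
  classical
  set SL := Cfsg.Geo.specialLinear (Fin n) F with hSL
  set H := Cfsg.Geo.quadSimilarityGroup Q with hH
  set O := OGrp S with hO
  have hOH : O ≤ H := by
    intro g hg
    rw [hH, hQ]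
    exact ⟨1, one_ne_zero, by rw [one_smul]; exact hg⟩
  have hdet : ∀ g ∈ O, Matrix.GeneralLinearGroup.det g = 1 ∨
      Matrix.GeneralLinearGroup.det g = -1 := by
    intro g hg
    have h1 : (g : Matrix (Fin n) (Fin n) F)ᵀ * S * (g : Matrix (Fin n) (Fin n) F) = S := hg
    have h2 := congrArg Matrix.det h1
    rw [Matrix.det_mul, Matrix.det_mul, Matrix.det_transpose] at h2
    have h3 : ((g : Matrix (Fin n) (Fin n) F).det - 1) *
        ((g : Matrix (Fin n) (Fin n) F).det + 1) = 0 := by
      have : (((g : Matrix (Fin n) (Fin n) F).det - 1) *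
          ((g : Matrix (Fin n) (Fin n) F).det + 1)) * S.det = 0 := by linear_combination h2
      rcases mul_eq_zero.mp this with h | h
      · exact h
      · exact absurd h hS
    rcases mul_eq_zero.mp h3 with h | h
    · left
      apply Units.ext
      rw [Matrix.GeneralLinearGroup.val_det_apply]
      simpa using sub_eq_zero.mp h
    · right
      apply Units.ext
      rw [Matrix.GeneralLinearGroup.val_det_apply]
      simpa using eq_neg_of_add_eq_zero_left h
  let φ : O →* Fˣ := (Matrix.GeneralLinearGroup.det).comp O.subtype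
  have hker : SL.subgroupOf O = φ.ker := rfl
  have hrel : SL.relIndex O = Nat.card φ.range := by
    rw [Subgroup.relIndex, hker, Subgroup.index_ker]
  have hrange : (φ.range : Set Fˣ) ⊆ {1, -1} := by
    rintro _ ⟨g, rfl⟩
    rcases hdet g g.2 with h | h
    · left; exact h
    · right; exact h
  have hcard2 : Nat.card φ.range ≤ 2 := by
    have := Nat.card_mono (Set.toFinite ({1, -1} : Set Fˣ)) hrange
    refine this.trans ?_
    rw [Nat.card_coe_set_eq]
    refine (Set.ncard_insert_le _ _).trans ?_
    rw [Set.ncard_singleton]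
  have hpos : 0 < Nat.card φ.range := Nat.card_pos
  have hmul : Nat.card (SL ⊓ O : Subgroup (GL (Fin n) F)) * SL.relIndex O = Nat.card O := by
    have := Subgroup.relIndex_mul_relIndex (⊥ : Subgroup (GL (Fin n) F)) (SL ⊓ O) O bot_le
      inf_le_right
    rw [Subgroup.relIndex_bot_left, Subgroup.relIndex_bot_left, Subgroup.inf_relIndex_right]
      at this
    exact this
  have hcop : Nat.Coprime (r ^ k) (SL.relIndex O) := by
    apply Nat.Coprime.pow_left
    rw [hrel]
    have : Nat.card φ.range = 1 ∨ Nat.card φ.range = 2 := by omega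
    rcases this with h | h
    · rw [h]; exact Nat.coprime_one_right r
    · rw [h]; exact (Nat.coprime_primes hr.out Nat.prime_two).2 hr2
  have hk1 : r ^ k ∣ Nat.card (SL ⊓ O : Subgroup (GL (Fin n) F)) := by
    rw [← hmul] at hk
    exact hcop.dvd_of_dvd_mul_right hk
  have hk2 : r ^ k ∣ Nat.card (H ⊓ SL : Subgroup (GL (Fin n) F)) := by
    refine hk1.trans (Subgroup.card_dvd_of_le ?_)
    exact le_inf (inf_le_right.trans hOH) inf_le_left
  have hmul2 : Nat.card (H ⊓ SL : Subgroup (GL (Fin n) F)) * H.relIndex SL = Nat.card SL := by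
    have := Subgroup.relIndex_mul_relIndex (⊥ : Subgroup (GL (Fin n) F)) (H ⊓ SL) SL bot_le
      inf_le_right
    rw [Subgroup.relIndex_bot_left, Subgroup.relIndex_bot_left, Subgroup.inf_relIndex_right]
      at this
    exact this
  have h3 : r ^ (k + 1) ∣ Nat.card SL := by
    rw [← hmul2, pow_succ]
    exact Nat.mul_dvd_mul hk2 hdvd
  have h4 : k + 1 ≤ padicValNat r (Nat.card SL) :=
    (padicValNat_dvd_iff_le Nat.card_pos.ne').mp h3
  omega

end Cfsg.Agent.Lib.Helper11.OrtIDXO
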