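import Cfsg.Agent.Lib.Helper37.OrtStmt
import Cfsg.Agent.S0752

set_option autoImplicit false

namespace Cfsg.Agent.Lib.Helper11.OrtPFAFF

open Cfsg
open Cfsg.Agent.Lib.Helper37.OrtStmt
open scoped Kronecker MatrixGroups Matrix

universe u

theorem main : Cfsg.Agent.Lib.Helper37.OrtStmt.Pfaff.{u} := by
  intro F _ h2 n K hK hdet
  classical
  let B : LinearMap.BilinForm F (Fin n → F) := Matrix.toBilin' K
  have hB : ∀ v w, B v w = v ⬝ᵥ K *ᵥ w := fun v w => Matrix.toBilin'_apply' K v w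
  have hA : B.IsAlt := by
    intro v
    rw [hB]
    have h1 : v ⬝ᵥ (K *ᵥ v) = -(v ⬝ᵥ (K *ᵥ v)) := by
      calc v ⬝ᵥ (K *ᵥ v) = (v ᵥ* K) ⬝ᵥ v := Matrix.dotProduct_mulVec v K v
        _ = (Kᵀ *ᵥ v) ⬝ᵥ v := by rw [Matrix.mulVec_transpose]
        _ = ((-K) *ᵥ v) ⬝ᵥ v := by rw [hK]
        _ = -((K *ᵥ v) ⬝ᵥ v) := by rw [Matrix.neg_mulVec, neg_dotProduct]
        _ = -(v ⬝ᵥ (K *ᵥ v)) := by rw [dotProduct_comm]
    have h3 : (2 : F) * (v ⬝ᵥ (K *ᵥ v)) = 0 := by linear_combination h1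
    exact (mul_eq_zero.mp h3).resolve_left h2
  obtain ⟨m, k, b, h1, h2', h3, h4⟩ := Cfsg.Agent.S0752.result B hA
  have hk : k = 0 := by
    by_contra hk
    obtain ⟨k', rfl⟩ := Nat.exists_eq_succ_of_ne_zero hk
    apply b.ne_zero (Sum.inr 0)
    apply Matrix.eq_zero_of_vecMul_eq_zero hdet
    funext a
    have := h4 0 (Pi.single a 1)
    rw [hB, Matrix.dotProduct_mulVec] at this
    simpa using this
  subst hk
  have hcard : Fintype.card ((Fin m ⊕ Fin m) ⊕ Fin 0) = n := by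
    have e1 := Module.finrank_eq_card_basis b
    rw [Module.finrank_fin_fun] at e1
    exact e1.symm
  let ε : ((Fin m ⊕ Fin m) ⊕ Fin 0) ≃ Fin n := Fintype.equivFinOfCardEq hcard
  let P : Matrix (Fin n) (Fin n) F := fun a j => b (ε.symm j) a
  have hG : ∀ j l, (Pᵀ * K * P) j l = B (b (ε.symm j)) (b (ε.symm l)) := by
    intro j l
    rw [hB, Matrix.mul_apply]
    simp only [Matrix.mul_apply, dotProduct, Matrix.mulVec]
    have hPt : ∀ j a, Pᵀ j a = b (ε.symm j) a := fun _ _ => rfl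
    have hP : ∀ a j, P a j = b (ε.symm j) a := fun _ _ => rfl
    simp only [hPt, hP, Finset.sum_mul, Finset.mul_sum]
    rw [Finset.sum_comm]
    refine Finset.sum_congr rfl fun a _ => Finset.sum_congr rfl fun c _ => by ring
  let J : Matrix (Fin m ⊕ Fin m) (Fin m ⊕ Fin m) F := Matrix.fromBlocks 0 1 (-1) 0
  let σ : Fin n ≃ Fin m ⊕ Fin m := ε.symm.trans (Equiv.sumEmpty _ _)
  have hPJ : Pᵀ * K * P = J.submatrix σ σ := by
    ext j l
    rw [hG, Matrix.submatrix_apply]
    show B (b (ε.symm j)) (b (ε.symm l)) =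
      J (Equiv.sumEmpty _ _ (ε.symm j)) (Equiv.sumEmpty _ _ (ε.symm l))
    generalize ε.symm j = x
    generalize ε.symm l = y
    rcases x with (x | x) | x
    · rcases y with (y | y) | y
      · simp [J, h2' x y]
      · simp [J, h1 x y, Matrix.one_apply]
      · exact y.elim0
    · rcases y with (y | y) | y
      · rw [← hA.neg_eq, h1 y x]; simp [J, Matrix.one_apply, eq_comm]
      · simp [J, h3 x y]
      · exact y.elim0
    · exact x.elim0
  have hJdet : J.det = 1 := by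
    have : J = Matrix.fromBlocks 1 1 0 1 * Matrix.fromBlocks 1 0 (-1) 1 *
        Matrix.fromBlocks 1 1 0 1 := by
      simp [J, Matrix.fromBlocks_multiply]
    rw [this, Matrix.det_mul, Matrix.det_mul, Matrix.det_fromBlocks_zero₂₁,
      Matrix.det_fromBlocks_zero₁₂]
    simp
  have hdetP : P.det * K.det * P.det = 1 := by
    have := congrArg Matrix.det hPJ
    rw [Matrix.det_mul, Matrix.det_mul, Matrix.det_transpose, Matrix.det_submatrix_equiv_self,
      hJdet] at this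
    exact this
  have hP0 : P.det ≠ 0 := by
    intro h; rw [h] at hdetP; simp at hdetP
  refine ⟨(P.det)⁻¹, ?_⟩
  field_simp
  linear_combination hdetP

end Cfsg.Agent.Lib.Helper11.OrtPFAFF
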