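import Mathlib
import Cfsg.Agent.Lib.Helper1.PDStmt
import Cfsg.Agent.S0016

/-!
# S4020 piece CYCQ8 (helper11)

A Sylow subgroup with an element of order `p²` in a group with (D) is cyclic or `Q₈`.
-/

set_option autoImplicit false

namespace Cfsg.Agent.Lib.Helper11.PDCYCQ8

open Cfsg.Agent.Lib.Helper1.PDStmt

universe u

theorem main (hU : Uniq.{u}) (hQ : Q16) : CycQ8.{u} := by
  intro G _ _ hD p _ P hx
  obtain ⟨Z₀, hZP, hZcard, hZ⟩ := hU G hD p P hx
  have hp : p.Prime := Fact.out
  have key : ∀ H : Subgroup ↥(P : Subgroup G), Nat.card H = p →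
      H.map (P : Subgroup G).subtype = Z₀ := by
    intro H hH
    have hle : H.map (P : Subgroup G).subtype ≤ Z₀ := by
      rintro _ ⟨y, hy, rfl⟩
      by_cases h1 : y = 1
      · subst h1
        simp
      · apply hZ _ y.2
        have hdvd : orderOf (⟨y, hy⟩ : H) ∣ p := by
          have h0 : orderOf (⟨y, hy⟩ : H) ∣ Nat.card H := orderOf_dvd_natCard _
          exact h0.trans (dvd_of_eq hH)
        have hoy : orderOf (⟨y, hy⟩ : H) = orderOf (y : G) := by
          rw [← Subgroup.orderOf_coe, ← Subgroup.orderOf_coe]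
        rcases (Nat.dvd_prime hp).mp hdvd with h | h
        · exfalso
          apply h1
          have h2 := orderOf_eq_one_iff.mp h
          exact congrArg Subtype.val h2
        · rw [← hoy, h]
    apply Subgroup.eq_of_le_of_card_ge hle
    rw [hZcard, Subgroup.card_subtype, hH]
  have huniq : ∀ H K : Subgroup ↥(P : Subgroup G), Nat.card H = p → Nat.card K = p → H = K := by
    intro H K hH hK
    apply Subgroup.map_injective (Subgroup.subtype_injective _)
    rw [key H hH, key K hK]
  rcases Cfsg.Agent.S0016.result p P.isPGroup' huniq with hc | ⟨rfl, n, ⟨e⟩⟩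
  · exact Or.inl hc
  · rcases n with _ | _ | n
    · left
      have e' : ↥(P : Subgroup G) ≃* QuaternionGroup 1 := e
      have := QuaternionGroup.quaternionGroup_one_isCyclic
      exact isCyclic_of_surjective e'.symm e'.symm.surjective
    · right
      exact ⟨e⟩
    · exfalso
      obtain ⟨C, Q, hC, hQc, hCcomm, a, ha, b, hb, hab⟩ := hQ (n + 1 + 1) (by omega)
      have hcard : ∀ S : Subgroup (QuaternionGroup (2 ^ (n + 1 + 1))),
          Nat.card ↥((S.comap e.toMonoidHom).map (P : Subgroup G).subtype) = Nat.card S := by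
        intro S
        rw [Subgroup.card_subtype]
        refine Nat.card_congr ⟨fun x => ⟨e x.1, x.2⟩, fun y => ⟨e.symm y.1, ?_⟩, ?_, ?_⟩
        · show e (e.symm y.1) ∈ S
          rw [e.apply_symm_apply]
          exact y.2
        · intro x
          apply Subtype.ext
          exact e.symm_apply_apply x.1
        · intro y
          apply Subtype.ext
          exact e.apply_symm_apply y.1
      have hPG : ∀ S : Subgroup (QuaternionGroup (2 ^ (n + 1 + 1))),
          IsPGroup 2 ↥((S.comap e.toMonoidHom).map (P : Subgroup G).subtype) := by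
        intro S
        exact P.isPGroup'.to_le (Subgroup.map_subtype_le _)
      obtain ⟨g, hg⟩ := hD 2 Nat.prime_two _ _ (hPG C) (hPG Q)
        ((hcard C).trans (hC.trans (hQc.symm.trans (hcard Q).symm)))
      have hmem : ∀ q ∈ Q, ∃ c : ↥(P : Subgroup G), e c ∈ C ∧
          ((e.symm q : ↥(P : Subgroup G)) : G) = g * (c : G) * g⁻¹ := by
        intro q hq
        have h1 : ((e.symm q : ↥(P : Subgroup G)) : G) ∈
            (Q.comap e.toMonoidHom).map (P : Subgroup G).subtype := by
          refine ⟨e.symm q, ?_, rfl⟩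
          show e (e.symm q) ∈ Q
          rw [e.apply_symm_apply]
          exact hq
        rw [hg] at h1
        obtain ⟨c₁, ⟨c, hc, rfl⟩, h2⟩ := h1
        exact ⟨c, hc, h2.symm⟩
      obtain ⟨c₁, hc₁, h₁⟩ := hmem a ha
      obtain ⟨c₂, hc₂, h₂⟩ := hmem b hb
      have hcc : c₁ * c₂ = c₂ * c₁ := by
        apply e.injective
        rw [map_mul, map_mul]
        exact hCcomm _ hc₁ _ hc₂
      have hcc' : (c₁ : G) * (c₂ : G) = (c₂ : G) * (c₁ : G) := by
        have := congrArg Subtype.val hcc
        simpa using this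
      have hab' : e.symm a * e.symm b = e.symm b * e.symm a := by
        apply Subtype.ext
        rw [Subgroup.coe_mul, Subgroup.coe_mul, h₁, h₂]
        calc g * ↑c₁ * g⁻¹ * (g * ↑c₂ * g⁻¹) = g * (↑c₁ * ↑c₂) * g⁻¹ := by group
          _ = g * (↑c₂ * ↑c₁) * g⁻¹ := by rw [hcc']
          _ = g * ↑c₂ * g⁻¹ * (g * ↑c₁ * g⁻¹) := by group
      apply hab
      have := congrArg e hab'
      simpa using this

end Cfsg.Agent.Lib.Helper11.PDCYCQ8
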