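import Mathlib
import Cfsg.Agent.Lib.Helper54.S68Stmt

set_option autoImplicit false

namespace Cfsg.Agent.Lib.Helper11.S68CARDZ

open Cfsg Cfsg.Agent.Lib.Helper54.S68Stmt

universe u

theorem main : Cfsg.Agent.Lib.Helper54.S68Stmt.CardZ.{u} := by
  intro G _ _ K Ks hinf hcomm hTI
  classical
  set L := K ⊔ Ks with hL
  let f : (G ⧸ L) × K × Ks → G :=
    fun p => p.1.out * ((p.2.1 : G) * (p.2.2 : G)) * (p.1.out)⁻¹
  let D : Set ((G ⧸ L) × K × Ks) := Set.univ ×ˢ (({1}ᶜ : Set K) ×ˢ ({1}ᶜ : Set Ks))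
  have hD : D.ncard = L.index * ((Nat.card K - 1) * (Nat.card Ks - 1)) := by
    rw [Set.ncard_prod, Set.ncard_prod, Set.ncard_univ, Set.ncard_compl, Set.ncard_compl,
      Set.ncard_singleton, Set.ncard_singleton, Subgroup.index_eq_card]
  have hZ : ∀ k : K, ∀ s : Ks, k ≠ 1 → s ≠ 1 → (k : G) * (s : G) ∈ Zhat K Ks := by
    intro k s hk hs
    refine ⟨Subgroup.mul_mem _ (Subgroup.mem_sup_left k.2) (Subgroup.mem_sup_right s.2), ?_⟩
    rintro (h | h)
    · have hsK : (s : G) ∈ K := by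
        have := K.mul_mem (K.inv_mem k.2) h
        simpa using this
      have : (s : G) ∈ K ⊓ Ks := ⟨hsK, s.2⟩
      rw [hinf, Subgroup.mem_bot] at this
      exact hs (Subtype.ext this)
    · have hkK : (k : G) ∈ Ks := by
        have := Ks.mul_mem h (Ks.inv_mem s.2)
        simpa using this
      have : (k : G) ∈ K ⊓ Ks := ⟨k.2, hkK⟩
      rw [hinf, Subgroup.mem_bot] at this
      exact hk (Subtype.ext this)
  have hinj : Set.InjOn f D := by
    rintro ⟨q, k, s⟩ ⟨-, hk, hs⟩ ⟨q', k', s'⟩ ⟨-, hk', hs'⟩ heq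
    have hk1 : k ≠ 1 := hk
    have hs1 : s ≠ 1 := hs
    have hk1' : k' ≠ 1 := hk'
    have hs1' : s' ≠ 1 := hs'
    have hz := hZ k s hk1 hs1
    have hz' := hZ k' s' hk1' hs1'
    have heq' : q.out * ((k : G) * (s : G)) * (q.out)⁻¹ =
        q'.out * ((k' : G) * (s' : G)) * (q'.out)⁻¹ := heq
    have h1 : (q'.out⁻¹ * q.out) * ((k : G) * s) * (q'.out⁻¹ * q.out)⁻¹ = (k' : G) * s' := by
      calc (q'.out⁻¹ * q.out) * ((k : G) * s) * (q'.out⁻¹ * q.out)⁻¹
          = q'.out⁻¹ * (q.out * ((k : G) * s) * q.out⁻¹) * q'.out := by group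
        _ = q'.out⁻¹ * (q'.out * ((k' : G) * s') * q'.out⁻¹) * q'.out := by rw [heq']
        _ = (k' : G) * s' := by group
    have h2 : q'.out⁻¹ * q.out ∈ L := hTI _ hz _ (by rw [h1]; exact hz')
    have hq : q = q' := by
      have : (q'.out : G ⧸ L) = (q.out : G ⧸ L) := QuotientGroup.eq.mpr h2
      rw [QuotientGroup.out_eq', QuotientGroup.out_eq'] at this
      exact this.symm
    subst hq
    have h3 : (k : G) * s = (k' : G) * s' := mul_left_cancel (mul_right_cancel heq')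
    have h4 : (k' : G)⁻¹ * k = (s' : G) * (s : G)⁻¹ := by
      calc (k' : G)⁻¹ * k = (k' : G)⁻¹ * ((k : G) * s) * (s : G)⁻¹ := by group
        _ = (k' : G)⁻¹ * ((k' : G) * s') * (s : G)⁻¹ := by rw [h3]
        _ = (s' : G) * (s : G)⁻¹ := by group
    have h5 : (k' : G)⁻¹ * k ∈ K ⊓ Ks :=
      ⟨K.mul_mem (K.inv_mem k'.2) k.2, by rw [h4]; exact Ks.mul_mem s'.2 (Ks.inv_mem s.2)⟩
    rw [hinf, Subgroup.mem_bot] at h5
    have hkk : (k : G) = k' := by rw [inv_mul_eq_one] at h5; exact h5.symm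
    have hss : (s : G) = s' := by rw [hkk] at h3; exact mul_left_cancel h3
    have hk2 : k = k' := Subtype.ext hkk
    have hs2 : s = s' := Subtype.ext hss
    rw [hk2, hs2]
  have hsub : f '' D ⊆ {y : G | ∃ z ∈ Zhat K Ks, ∃ g : G, y = g * z * g⁻¹} := by
    rintro _ ⟨⟨q, k, s⟩, ⟨-, hk, hs⟩, rfl⟩
    exact ⟨_, hZ k s hk hs, q.out, rfl⟩
  calc (Nat.card K - 1) * (Nat.card Ks - 1) * L.index = D.ncard := by rw [hD]; ring
    _ = (f '' D).ncard := (Set.InjOn.ncard_image hinj).symm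
    _ ≤ _ := Set.ncard_le_ncard hsub (Set.toFinite _)

end Cfsg.Agent.Lib.Helper11.S68CARDZ
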