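import Mathlib
import Cfsg.Agent.Lib.Helper54.S68Stmt

set_option autoImplicit false

namespace Cfsg.Agent.Lib.Helper11.S68CYCSUP

open Cfsg Cfsg.Agent.Lib.Helper54.S68Stmt

universe u

theorem main : Cfsg.Agent.Lib.Helper54.S68Stmt.CycSup.{u} := by
  intro G _ _ A B hA hB hcomm hcop
  obtain ⟨⟨a, haA⟩, ha⟩ := hA.exists_generator
  obtain ⟨⟨b, hbB⟩, hb⟩ := hB.exists_generator
  have hab : Commute a b := hcomm a haA b hbB
  have haA' : a ^ Nat.card A = 1 := by
    have h := congrArg Subtype.val (pow_card_eq_one' (G := A) (x := ⟨a, haA⟩))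
    rw [Subgroup.coe_pow, Subgroup.coe_one] at h
    exact h
  have hbB' : b ^ Nat.card B = 1 := by
    have h := congrArg Subtype.val (pow_card_eq_one' (G := B) (x := ⟨b, hbB⟩))
    rw [Subgroup.coe_pow, Subgroup.coe_one] at h
    exact h
  have hbez : (1 : ℤ) = (Nat.card A : ℤ) * Nat.gcdA (Nat.card A) (Nat.card B) +
      (Nat.card B : ℤ) * Nat.gcdB (Nat.card A) (Nat.card B) := by
    have := Nat.gcd_eq_gcd_ab (Nat.card A) (Nat.card B)
    rw [Nat.Coprime.gcd_eq_one hcop] at this
    exact_mod_cast this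
  set x := a * b with hx
  have hxA : a ∈ Subgroup.zpowers x := by
    have h1 : x ^ Nat.card B = a ^ Nat.card B := by rw [hx, hab.mul_pow, hbB', mul_one]
    have h2 : a = (a ^ Nat.card B) ^ (Nat.gcdB (Nat.card A) (Nat.card B)) := by
      conv_lhs => rw [← zpow_one a, hbez, zpow_add, zpow_mul, zpow_mul, zpow_natCast,
        zpow_natCast, haA', one_zpow, one_mul]
    rw [h2, ← h1]
    exact Subgroup.zpow_mem _ (Subgroup.pow_mem _ (Subgroup.mem_zpowers x) _) _
  have hxB : b ∈ Subgroup.zpowers x := by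
    have h1 : x ^ Nat.card A = b ^ Nat.card A := by rw [hx, hab.mul_pow, haA', one_mul]
    have h2 : b = (b ^ Nat.card A) ^ (Nat.gcdA (Nat.card A) (Nat.card B)) := by
      conv_lhs => rw [← zpow_one b, hbez, zpow_add, zpow_mul, zpow_mul, zpow_natCast,
        zpow_natCast, hbB', one_zpow, mul_one]
    rw [h2, ← h1]
    exact Subgroup.zpow_mem _ (Subgroup.pow_mem _ (Subgroup.mem_zpowers x) _) _
  have hAle : A ≤ Subgroup.zpowers x := by
    intro y hy
    obtain ⟨n, hn⟩ := Subgroup.mem_zpowers_iff.mp (ha ⟨y, hy⟩)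
    have h3 : y = a ^ n := by
      have := congrArg Subtype.val hn
      simpa using this.symm
    rw [h3]; exact Subgroup.zpow_mem _ hxA n
  have hBle : B ≤ Subgroup.zpowers x := by
    intro y hy
    obtain ⟨n, hn⟩ := Subgroup.mem_zpowers_iff.mp (hb ⟨y, hy⟩)
    have h3 : y = b ^ n := by
      have := congrArg Subtype.val hn
      simpa using this.symm
    rw [h3]; exact Subgroup.zpow_mem _ hxB n
  have hsup : A ⊔ B = Subgroup.zpowers x := by
    refine le_antisymm (sup_le hAle hBle) ?_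
    rw [Subgroup.zpowers_le]
    exact Subgroup.mul_mem _ (Subgroup.mem_sup_left haA) (Subgroup.mem_sup_right hbB)
  rw [hsup]
  infer_instance

end Cfsg.Agent.Lib.Helper11.S68CYCSUP
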