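import Mathlib
import Cfsg.Agent.Lib.Helper54.S68Stmt

set_option autoImplicit false

namespace Cfsg.Agent.Lib.Helper11.S68ZG

open Cfsg Cfsg.Agent.Lib.Helper54.S68Stmt

universe u

theorem main : Cfsg.Agent.Lib.Helper54.S68Stmt.ZG.{u} := by
  intro G _ _ Ms Ks hHall
  obtain ⟨hle, hpi, -⟩ := hHall
  refine ⟨fun p hp P => ?_⟩
  haveI : Fact p.Prime := ⟨hp⟩
  by_cases hdvd : p ∣ Nat.card Ks
  · have hκ := hpi p hp hdvd
    obtain ⟨-, -, -, hcyc⟩ := hκ
    let ι : Ks →* Ms := Subgroup.inclusion hle
    have hι : Function.Injective ι := Subgroup.inclusion_injective hle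
    have hPp : IsPGroup p ((P : Subgroup Ks).map ι) := P.isPGroup'.map ι
    obtain ⟨Q, hQ⟩ := hPp.exists_le_sylow
    haveI : IsCyclic (Q : Subgroup Ms) := (hcyc Q).1
    let f : (P : Subgroup Ks) →* (Q : Subgroup Ms) :=
      MonoidHom.codRestrict (ι.comp (P : Subgroup Ks).subtype) (Q : Subgroup Ms)
        (fun x => hQ ⟨x, x.2, rfl⟩)
    have hf : Function.Injective f := by
      intro x y hxy
      have := congrArg Subtype.val hxy
      exact Subtype.ext (hι this)
    exact isCyclic_of_injective f hf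
  · have hcard : Nat.card (P : Subgroup Ks) = 1 := by
      obtain ⟨n, hn⟩ := IsPGroup.iff_card.mp P.isPGroup'
      rcases Nat.eq_zero_or_pos n with rfl | hpos
      · simpa using hn
      · exfalso; apply hdvd
        have h1 : p ∣ Nat.card (P : Subgroup Ks) := by rw [hn]; exact dvd_pow_self p hpos.ne'
        exact h1.trans (Subgroup.card_subgroup_dvd_card _)
    haveI : Subsingleton (P : Subgroup Ks) := (Nat.card_eq_one_iff_unique.mp hcard).1
    infer_instance

end Cfsg.Agent.Lib.Helper11.S68ZG
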