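import Mathlib
import Cfsg.Agent.Lib.Helper40.SFStmt

set_option autoImplicit false

namespace Cfsg.Agent.Lib.Helper11.SFCOMMA

open Cfsg.Agent.Lib.Helper40.SFStmt

universe u

theorem main : Cfsg.Agent.Lib.Helper40.SFStmt.CommA.{u} := by
  intro F L _ _ _ n τ s₁ s₂ e₁ e₂ κ h12 h21 hA hB hC hD hE
  intro z
  obtain ⟨x, hx⟩ : ∃ x, x = (s₂ * s₁)⁻¹ z := ⟨_, rfl⟩
  have hz : z = s₂ (s₁ x) := by
    rw [hx, ← LinearEquiv.mul_apply, ← LinearEquiv.mul_apply, mul_inv_cancel]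
    rfl
  have hL : (s₁ * s₂ * (s₂ * s₁)⁻¹) z = s₁ (s₂ x) := by
    rw [LinearEquiv.mul_apply, LinearEquiv.mul_apply, hx]
  rw [hL]
  subst hz
  have hZ : s₁ (s₂ x) = (κ * ff τ x e₂) • e₁ + s₂ x + s₁ x - x := by
    rw [← h12 x]; abel
  have hY : s₂ (s₁ x) = (-(κ * ff τ x e₁)) • e₂ + s₁ x + s₂ x - x := by
    rw [← h21 x]; abel
  have e : s₂ (s₁ x) = (-(κ * ff τ x e₁)) • e₂ + (s₁ x - x) + (s₂ x - x) + x := by
    rw [hY]; abel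
  have fy1 : ff τ (s₂ (s₁ x)) e₁ = ff τ x e₁ := by
    rw [e, ff_add_left, ff_add_left, ff_add_left, ff_smul_left, hA, hB, hE]; ring
  have fy2 : ff τ (s₂ (s₁ x)) e₂ = ff τ x e₂ - κ * ff τ x e₁ := by
    rw [e, ff_add_left, ff_add_left, ff_add_left, ff_smul_left, hD, hC, ff_self]; ring
  rw [ff_smul_right, fy1, fy2, hZ, hY]
  module

end Cfsg.Agent.Lib.Helper11.SFCOMMA
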