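import Mathlib
import Cfsg.Agent.Lib.Helper40.SFStmt

set_option autoImplicit false

namespace Cfsg.Agent.Lib.Helper11.SFHUA

open Cfsg.Agent.Lib.Helper40.SFStmt

universe u

/-- Hua's identity: a subspace closed under inverses is closed under `(a, b) ↦ a² b`. -/
theorem sq_mul_mem {F L : Type u} [Field F] [Field L] [Algebra F L] (S : Submodule F L)
    (hinv : ∀ s ∈ S, s ≠ 0 → s⁻¹ ∈ S) (a b : L) (ha : a ∈ S) (hb : b ∈ S) :
    a * a * b ∈ S := by
  by_cases ha0 : a = 0
  · rw [ha0]; simp
  by_cases hb0 : b = 0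
  · rw [hb0]; simp
  by_cases hab : a * b = 1
  · rw [mul_assoc, hab, mul_one]; exact ha
  have hD : 1 - a * b ≠ 0 := sub_ne_zero.mpr (Ne.symm hab)
  have h1 : b⁻¹ - a ∈ S := S.sub_mem (hinv b hb hb0) ha
  have h1e : b⁻¹ - a = (1 - a * b) / b := by field_simp
  have h1ne : b⁻¹ - a ≠ 0 := by
    rw [h1e]; exact div_ne_zero hD hb0
  have h2 : a⁻¹ + (b⁻¹ - a)⁻¹ ∈ S := S.add_mem (hinv a ha ha0) (hinv _ h1 h1ne)
  have key : a⁻¹ + (b⁻¹ - a)⁻¹ = (a * (1 - a * b))⁻¹ := by
    rw [h1e]
    field_simp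
    ring
  have h3ne : a⁻¹ + (b⁻¹ - a)⁻¹ ≠ 0 := by
    rw [key]; exact inv_ne_zero (mul_ne_zero ha0 hD)
  have h4 := hinv _ h2 h3ne
  rw [key, inv_inv] at h4
  have : a * a * b = a - a * (1 - a * b) := by ring
  rw [this]
  exact S.sub_mem ha h4

theorem main : Cfsg.Agent.Lib.Helper40.SFStmt.Hua.{u} := by
  intro F L _ _ _ _ h2 h3 S h1S hdim
  by_contra hcon
  push_neg at hcon
  have hinv : ∀ s ∈ S, s ≠ 0 → s⁻¹ ∈ S := hcon
  have h2L : (2 : L) = 0 := by
    have := congrArg (algebraMap F L) h2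
    rwa [map_ofNat, map_zero] at this
  have hneg : ∀ b : L, -b = b := by
    intro b
    have : b + b = 0 := by rw [← two_mul, h2L, zero_mul]
    exact neg_eq_of_add_eq_zero_left this
  -- squaring is a bijection of S
  have hsq : ∀ a : S, (a : L) * (a : L) ∈ S := by
    intro a
    have := sq_mul_mem S hinv a 1 a.2 h1S
    rwa [mul_one] at this
  let sq : S → S := fun a => ⟨(a : L) * (a : L), hsq a⟩
  have hsq_inj : Function.Injective sq := by
    intro a b hab
    have h : (a : L) * (a : L) = (b : L) * (b : L) := congrArg Subtype.val hab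
    rcases mul_self_eq_mul_self_iff.mp h with h | h
    · exact Subtype.ext h
    · rw [hneg] at h; exact Subtype.ext h
  have hsq_surj : Function.Surjective sq := Finite.injective_iff_surjective.mp hsq_inj
  have hmul : ∀ c ∈ S, ∀ b ∈ S, c * b ∈ S := by
    intro c hc b hb
    obtain ⟨a, ha⟩ := hsq_surj ⟨c, hc⟩
    have hc' : (a : L) * (a : L) = c := congrArg Subtype.val ha
    rw [← hc']
    exact sq_mul_mem S hinv a b a.2 hb
  -- an element outside S
  have hex : ∃ x : L, x ∉ S := by
    by_contra hall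
    push_neg at hall
    have htop : S = ⊤ := (Submodule.eq_top_iff').mpr hall
    rw [htop, finrank_top] at hdim
    omega
  obtain ⟨x, hx⟩ := hex
  let φ : (S × S) →ₗ[F] L := S.subtype.coprod ((LinearMap.mulLeft F x).comp S.subtype)
  have hφ : ∀ p : S × S, φ p = (p.1 : L) + x * (p.2 : L) := by
    intro p
    simp [φ, LinearMap.coprod_apply]
  have hinj : Function.Injective φ := by
    rw [← LinearMap.ker_eq_bot, LinearMap.ker_eq_bot']
    rintro ⟨s, t⟩ hp
    rw [hφ] at hp
    simp only at hp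
    have ht : (t : L) = 0 := by
      by_contra ht
      apply hx
      have hxe : x = (-(s : L)) * (t : L)⁻¹ := by
        field_simp
        linear_combination hp
      rw [hxe]
      exact hmul _ (S.neg_mem s.2) _ (hinv _ t.2 ht)
    rw [ht, mul_zero, add_zero] at hp
    have hs : s = 0 := Subtype.ext hp
    have ht' : t = 0 := Subtype.ext ht
    rw [hs, ht']
    rfl
  have hle := LinearMap.finrank_le_finrank_of_injective hinj
  rw [Module.finrank_prod] at hle
  omega

end Cfsg.Agent.Lib.Helper11.SFHUA
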