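import Mathlib
import Cfsg.Agent.Lib.Helper40.SFStmt
import Cfsg.Agent.Lib.Helper94.SympStd

set_option autoImplicit false

namespace Cfsg.Agent.Lib.Helper11.SFSEP

open Cfsg.Agent.Lib.Helper40.SFStmt

universe u

theorem main : Cfsg.Agent.Lib.Helper40.SFStmt.Sep.{u} := by
  intro L _ n w b hb
  have hnot : b ∉ Submodule.span L ({w} : Set (W n L)) := by
    intro hmem
    rw [Submodule.mem_span_singleton] at hmem
    obtain ⟨a, ha⟩ := hmem
    exact hb a ha.symm
  obtain ⟨φ, hφb, hφ⟩ := Submodule.exists_dual_map_eq_bot_of_notMem hnot inferInstance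
  obtain ⟨u, hu⟩ := Cfsg.Agent.Lib.Helper94.SympAbs.exists_rep
    (Cfsg.Agent.Lib.Helper94.SympStd.sympForm_isSymplectic (m := n) (F := L)) φ
  refine ⟨u, ?_, ?_⟩
  · rw [← hu]
    have : φ w ∈ (Submodule.span L ({w} : Set (W n L))).map φ :=
      Submodule.mem_map_of_mem (Submodule.mem_span_singleton_self w)
    rw [hφ] at this
    exact (Submodule.mem_bot L).mp this
  · rw [← hu]
    exact hφb

end Cfsg.Agent.Lib.Helper11.SFSEP
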