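import Mathlib
import Cfsg.Agent.Lib.Helper38.Sp4Stmt

/-!
# S5320 piece GCENT: the centralizer in `PSp₄` of the image of `diag(-1, 1, -1, 1)`
-/

set_option autoImplicit false

namespace Cfsg.Agent.Lib.Helper11.Sp4GCENT

open Matrix Cfsg.Agent.Lib.Helper38.Sp4Stmt

universe u

variable {F : Type u} [Field F]

/-- the diagonal of `z~ = PsiMat (-1) 1` -/
def zd (F : Type u) [Field F] : Fin 2 ⊕ Fin 2 → F := Sum.elim ![-1, 1] ![-1, 1]

theorem psiMat_neg_one :
    PsiMat (-1 : Matrix (Fin 2) (Fin 2) F) 1 = Matrix.diagonal (zd F) := by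
  ext i j
  rcases i with i | i <;> rcases j with j | j <;> fin_cases i <;> fin_cases j <;>
    simp [PsiMat, zd, Matrix.fromBlocks, Matrix.diagonal, Matrix.one_apply]

theorem t0_mul_t0 : T0Mat F * T0Mat F = 1 := by
  ext i j
  rcases i with i | i <;> rcases j with j | j <;> fin_cases i <;> fin_cases j <;>
    simp [T0Mat, Matrix.fromBlocks, Matrix.mul_apply, Fintype.sum_sum_type, Fin.sum_univ_two,
      Matrix.one_apply]

theorem t0_mul_z : T0Mat F * Matrix.diagonal (zd F) = (-1 : F) • (Matrix.diagonal (zd F) * T0Mat F) := by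
  ext i j
  rcases i with i | i <;> rcases j with j | j <;> fin_cases i <;> fin_cases j <;>
    simp [T0Mat, zd, Matrix.fromBlocks, Matrix.mul_apply, Fintype.sum_sum_type, Fin.sum_univ_two,
      Matrix.diagonal]

/-- a symplectic matrix commuting with `diag(-1,1,-1,1)` is a `PsiMat` -/
theorem core (h2 : (2 : F) ≠ 0) (g : Matrix (Fin 2 ⊕ Fin 2) (Fin 2 ⊕ Fin 2) F)
    (hg : g ∈ Matrix.symplecticGroup (Fin 2) F)
    (hc : g * Matrix.diagonal (zd F) = Matrix.diagonal (zd F) * g) :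
    ∃ a b : Matrix.SpecialLinearGroup (Fin 2) F,
      g = PsiMat (a : Matrix (Fin 2) (Fin 2) F) (b : Matrix (Fin 2) (Fin 2) F) := by
  have key : ∀ i j, zd F i ≠ zd F j → g i j = 0 := by
    intro i j hij
    have h1 := congrFun (congrFun hc i) j
    rw [Matrix.mul_diagonal, Matrix.diagonal_mul] at h1
    have h3 : (zd F j - zd F i) * g i j = 0 := by linear_combination h1
    rcases mul_eq_zero.1 h3 with h4 | h4
    · exact absurd (sub_eq_zero.1 h4).symm hij
    · exact h4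
  have hne : (-1 : F) ≠ 1 := by
    intro h
    apply h2
    linear_combination (-1 : F) * h
  have z01 : ∀ p q : Fin 2 → Fin 2 ⊕ Fin 2, (p = Sum.inl ∨ p = Sum.inr) →
      (q = Sum.inl ∨ q = Sum.inr) → g (p 0) (q 1) = 0 ∧ g (p 1) (q 0) = 0 := by
    intro p q hp hq
    rcases hp with rfl | rfl <;> rcases hq with rfl | rfl <;>
      exact ⟨key _ _ (by simpa [zd] using hne), key _ _ (by simpa [zd] using hne.symm)⟩
  have a1 := (z01 Sum.inl Sum.inl (Or.inl rfl) (Or.inl rfl))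
  have a2 := (z01 Sum.inl Sum.inr (Or.inl rfl) (Or.inr rfl))
  have a3 := (z01 Sum.inr Sum.inl (Or.inr rfl) (Or.inl rfl))
  have a4 := (z01 Sum.inr Sum.inr (Or.inr rfl) (Or.inr rfl))
  rw [SymplecticGroup.mem_iff] at hg
  have d1 := congrFun (congrFun hg (Sum.inl 0)) (Sum.inr 0)
  have d2 := congrFun (congrFun hg (Sum.inl 1)) (Sum.inr 1)
  simp [Matrix.J, Matrix.fromBlocks, Matrix.mul_apply, Fintype.sum_sum_type, Fin.sum_univ_two,
    Matrix.transpose_apply, Matrix.one_apply, a1.1, a1.2, a2.1, a2.2, a3.1, a3.2, a4.1, a4.2]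
    at d1 d2
  refine ⟨⟨!![g (Sum.inl 0) (Sum.inl 0), g (Sum.inl 0) (Sum.inr 0);
              g (Sum.inr 0) (Sum.inl 0), g (Sum.inr 0) (Sum.inr 0)], ?_⟩,
          ⟨!![g (Sum.inl 1) (Sum.inl 1), g (Sum.inl 1) (Sum.inr 1);
              g (Sum.inr 1) (Sum.inl 1), g (Sum.inr 1) (Sum.inr 1)], ?_⟩, ?_⟩
  · rw [Matrix.det_fin_two_of]; linear_combination (-1 : F) * d1
  · rw [Matrix.det_fin_two_of]; linear_combination (-1 : F) * d2
  · ext i j
    rcases i with i | i <;> rcases j with j | j <;> fin_cases i <;> fin_cases j <;>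
      simp [PsiMat, Matrix.fromBlocks, Matrix.diagonal, a1.1, a1.2, a2.1, a2.2, a3.1, a3.2,
        a4.1, a4.2]

theorem main : GCENT.{u} := by
  intro F _ Ψ t hΨ ht h2 g hg
  obtain ⟨g0, rfl⟩ := Cfsg.Agent.Lib.Helper43.SpBasic.pr_surjective g
  have hz : ((Ψ (-1, 1) : Matrix.symplecticGroup (Fin 2) F) :
      Matrix (Fin 2 ⊕ Fin 2) (Fin 2 ⊕ Fin 2) F) = Matrix.diagonal (zd F) := by
    rw [hΨ]
    simp only [Matrix.SpecialLinearGroup.coe_neg, Matrix.SpecialLinearGroup.coe_one]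
    exact psiMat_neg_one
  have hg' : pr (g0 * Ψ (-1, 1)) = pr (Ψ (-1, 1) * g0) := by
    rw [map_mul, map_mul]; exact hg
  obtain ⟨c, hc, h1⟩ := Cfsg.Agent.Lib.Helper43.SpBasic.exists_scalar_of_pr_eq (by norm_num) hg'
  rw [Submonoid.coe_mul, Submonoid.coe_mul, hz] at h1
  have hc' : c = 1 ∨ c = -1 := by
    have : (c - 1) * (c + 1) = 0 := by linear_combination hc
    rcases mul_eq_zero.1 this with h | h
    · left; exact sub_eq_zero.1 h
    · right; exact eq_neg_of_add_eq_zero_left h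
  rcases hc' with rfl | rfl
  · rw [one_smul] at h1
    obtain ⟨a, b, hab⟩ := core h2 _ g0.2 h1
    refine ⟨a, b, Or.inl ?_⟩
    congr 1
    apply Subtype.ext
    rw [hab, hΨ]
  · have hmem : ((g0 * t : Matrix.symplecticGroup (Fin 2) F) :
        Matrix (Fin 2 ⊕ Fin 2) (Fin 2 ⊕ Fin 2) F) ∈ Matrix.symplecticGroup (Fin 2) F :=
      (g0 * t).2
    have hcomm : ((g0 * t : Matrix.symplecticGroup (Fin 2) F) :
        Matrix (Fin 2 ⊕ Fin 2) (Fin 2 ⊕ Fin 2) F) * Matrix.diagonal (zd F) =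
        Matrix.diagonal (zd F) * ((g0 * t : Matrix.symplecticGroup (Fin 2) F) :
        Matrix (Fin 2 ⊕ Fin 2) (Fin 2 ⊕ Fin 2) F) := by
      rw [Submonoid.coe_mul, ht, Matrix.mul_assoc, t0_mul_z, Matrix.mul_smul, ← Matrix.mul_assoc,
        h1, Matrix.smul_mul, smul_smul, Matrix.mul_assoc]
      simp
    obtain ⟨a, b, hab⟩ := core h2 _ hmem hcomm
    refine ⟨a, b, Or.inr ?_⟩
    rw [← map_mul]
    congr 1
    apply Subtype.ext
    rw [Submonoid.coe_mul, hΨ, ← hab, Submonoid.coe_mul, ht, Matrix.mul_assoc, t0_mul_t0,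
      Matrix.mul_one]

end Cfsg.Agent.Lib.Helper11.Sp4GCENT
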