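import Mathlib
import Cfsg.Agent.Lib.Helper52.SpStmt

set_option autoImplicit false

/-!
# S5171 piece RQC: the Siegel radical `RQ` of `PSp` contains its centralizer

Also exports `lift_comm` (commutation with an element of `U` lifts from `PSp` to `Sp`).
-/

namespace Cfsg.Agent.Lib.Helper11.SpRQC

open Matrix Cfsg.Agent.Lib.Helper43.SpBasic Cfsg.Agent.Lib.Helper43.SpSylow
open Cfsg.Agent.Lib.Helper43.PSLnUT (IsUT isUT_one)
open Cfsg.Agent.Lib.Helper52.SpStmt

universe u

section

variable {m : ℕ} {F : Type u} [Field F] [Fintype F]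

/-- every element of `U` has `p`-power order -/
theorem pow_eq_one_of_mem_U (p : ℕ) [Fact p.Prime] [CharP F p]
    {x : Matrix.symplecticGroup (Fin m) F} (hx : x ∈ U) : ∃ k : ℕ, x ^ (p ^ k) = 1 := by
  obtain ⟨n, -, hn⟩ := FiniteField.card F p
  refine ⟨(n : ℕ) * m ^ 2, ?_⟩
  have h1 : (⟨x, hx⟩ : ↥(U : Subgroup (Matrix.symplecticGroup (Fin m) F))) ^
      Nat.card (U : Subgroup (Matrix.symplecticGroup (Fin m) F)) = 1 := pow_card_eq_one'
  rw [card_U, hn, ← pow_mul] at h1
  have h2 := congrArg Subtype.val h1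
  simpa using h2

/-- commutation in `PSp` with the image of an element of `U` lifts to `Sp` -/
theorem lift_comm (hm : 1 ≤ m) (p : ℕ) [Fact p.Prime] [CharP F p]
    (g0 x : Matrix.symplecticGroup (Fin m) F) (hx : x ∈ U)
    (h : pr g0 * pr x = pr x * pr g0) : g0 * x = x * g0 := by
  obtain ⟨k, hk⟩ := pow_eq_one_of_mem_U p hx
  have h1 : pr (g0 * x * g0⁻¹) = pr x := by
    rw [map_mul, map_mul, h, map_inv, mul_inv_cancel_right]
  obtain ⟨a, ha, h2⟩ := exists_scalar_of_pr_eq hm h1
  have h3 : (g0 * x * g0⁻¹) ^ (p ^ k) = 1 := by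
    rw [conj_pow, hk, mul_one, mul_inv_cancel]
  have h4 : (((g0 * x * g0⁻¹) ^ (p ^ k) : Matrix.symplecticGroup (Fin m) F) :
      Matrix (Fin m ⊕ Fin m) (Fin m ⊕ Fin m) F) = a ^ (p ^ k) • 1 := by
    rw [SubmonoidClass.coe_pow, h2, smul_pow, ← SubmonoidClass.coe_pow, hk, Submonoid.coe_one]
  rw [h3, Submonoid.coe_one] at h4
  have h5 := congrFun (congrFun h4 (Sum.inl ⟨0, hm⟩)) (Sum.inl ⟨0, hm⟩)
  rw [Matrix.smul_apply, Matrix.one_apply_eq, smul_eq_mul, mul_one] at h5
  have hp : p.Prime := Fact.out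
  have ha1 : a = 1 := by
    rcases hp.eq_two_or_odd' with h2' | hodd
    · subst h2'
      have h20 : (2 : F) = 0 := by
        have := CharP.cast_eq_zero F 2
        exact_mod_cast this
      have : (a - 1) ^ 2 = 0 := by
        linear_combination ha + (1 - a) * h20
      exact sub_eq_zero.1 (pow_eq_zero_iff (two_ne_zero) |>.1 this)
    · have hodd' : Odd (p ^ k) := hodd.pow
      obtain ⟨j, hj⟩ := hodd'
      rw [hj, pow_succ, pow_mul, ha, one_pow, one_mul] at h5
      exact h5.symm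
  have h6 : g0 * x * g0⁻¹ = x := by
    apply Subtype.ext
    rw [h2, ha1, one_smul]
  calc g0 * x = (g0 * x * g0⁻¹) * g0 := by group
    _ = x * g0 := by rw [h6]

theorem mkMat_one (s : Matrix (Fin m) (Fin m) F) :
    mkMat (1 : Matrix (Fin m) (Fin m) F) s = fromBlocks 1 s 0 1 := by
  unfold mkMat
  rw [Matrix.transpose_one, inv_one, Matrix.mul_one]

theorem comm_blocks {A B C D s : Matrix (Fin m) (Fin m) F}
    (h : fromBlocks A B C D * fromBlocks 1 s 0 1 = fromBlocks 1 s 0 1 * fromBlocks A B C D) :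
    s * C = 0 ∧ A * s = s * D := by
  rw [fromBlocks_multiply, fromBlocks_multiply, fromBlocks_inj] at h
  obtain ⟨h1, h2, -, -⟩ := h
  rw [Matrix.mul_one, Matrix.mul_zero, add_zero, Matrix.one_mul] at h1
  rw [Matrix.mul_one, Matrix.one_mul, add_comm] at h2
  exact ⟨(left_eq_add.1 h1), add_left_cancel h2⟩

theorem single_isSymm (i : Fin m) (c : F) : (Matrix.single i i c).IsSymm := by
  unfold Matrix.IsSymm
  rw [Matrix.transpose_single]

/-- a matrix triple `A, C, D` with `s C = 0`, `A s = s D` for all symmetric `s` -/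
theorem scalar_of_comm (hm : 1 ≤ m) {A C D : Matrix (Fin m) (Fin m) F}
    (h : ∀ s : Matrix (Fin m) (Fin m) F, s.IsSymm → s * C = 0 ∧ A * s = s * D) :
    C = 0 ∧ ∃ lam : F, A = lam • (1 : Matrix (Fin m) (Fin m) F) ∧
      D = lam • (1 : Matrix (Fin m) (Fin m) F) := by
  have hC : C = 0 := by
    ext i k
    have h1 := congrFun (congrFun (h (Matrix.single i i 1) (single_isSymm i 1)).1 i) k
    rw [Matrix.single_mul_apply_same, one_mul] at h1
    exact h1
  have hA : ∀ i k : Fin m, k ≠ i → A k i = 0 := by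
    intro i k hki
    have h1 := congrFun (congrFun (h (Matrix.single i i 1) (single_isSymm i 1)).2 k) i
    rw [Matrix.mul_single_apply_same, mul_one, Matrix.single_mul_apply_of_ne _ _ _ _ _ hki] at h1
    exact h1
  have hD : ∀ i j : Fin m, j ≠ i → D i j = 0 := by
    intro i j hji
    have h1 := congrFun (congrFun (h (Matrix.single i i 1) (single_isSymm i 1)).2 i) j
    rw [Matrix.mul_single_apply_of_ne _ _ _ _ _ hji, Matrix.single_mul_apply_same, one_mul] at h1
    exact h1.symm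
  have hAD : ∀ i : Fin m, A i i = D i i := by
    intro i
    have h1 := congrFun (congrFun (h (Matrix.single i i 1) (single_isSymm i 1)).2 i) i
    rw [Matrix.mul_single_apply_same, mul_one, Matrix.single_mul_apply_same, one_mul] at h1
    exact h1
  have hij : ∀ i j : Fin m, i ≠ j → A i i = D j j := by
    intro i j hne
    have h1 := congrFun (congrFun (h (altm i j 1) (altm_isSymm i j 1)).2 i) j
    unfold altm at h1
    rw [Matrix.mul_add, Matrix.add_mul, Matrix.add_apply, Matrix.add_apply,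
      Matrix.mul_single_apply_same, mul_one,
      Matrix.mul_single_apply_of_ne _ _ _ _ _ hne.symm, add_zero,
      Matrix.single_mul_apply_same, one_mul,
      Matrix.single_mul_apply_of_ne _ _ _ _ _ hne, add_zero] at h1
    exact h1
  refine ⟨hC, A ⟨0, hm⟩ ⟨0, hm⟩, ?_, ?_⟩
  · ext k i
    rw [Matrix.smul_apply, smul_eq_mul]
    by_cases hki : k = i
    · subst hki
      rw [Matrix.one_apply_eq, mul_one]
      by_cases h0 : k = ⟨0, hm⟩
      · rw [h0]
      · rw [hAD k, ← hij _ _ (Ne.symm h0)]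
    · rw [Matrix.one_apply_ne hki, mul_zero]
      exact hA i k hki
  · ext i j
    rw [Matrix.smul_apply, smul_eq_mul]
    by_cases hji : i = j
    · subst hji
      rw [Matrix.one_apply_eq, mul_one]
      by_cases h0 : i = ⟨0, hm⟩
      · rw [h0, hAD]
      · rw [← hij _ _ (Ne.symm h0)]
    · rw [Matrix.one_apply_ne hji, mul_zero]
      exact hD i j (Ne.symm hji)

end

/-- [RQC] `RQ` contains its centralizer in `PSp` -/
theorem main : RQCent.{u} := by
  intro m F _ _ p _ _ hm g hg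
  obtain ⟨g0, rfl⟩ := pr_surjective g
  have hcomm : ∀ (s : Matrix (Fin m) (Fin m) F) (hs : s.IsSymm),
      g0 * mk 1 s isUT_one hs = mk 1 s isUT_one hs * g0 := by
    intro s hs
    apply lift_comm hm p g0 _ (mk_mem _ _ _ _)
    apply hg
    exact Subgroup.mem_map_of_mem _ (Subgroup.subset_closure ⟨s, hs, rfl⟩)
  obtain ⟨A, B, C, D, hG⟩ : ∃ A B C D : Matrix (Fin m) (Fin m) F,
      (g0 : Matrix (Fin m ⊕ Fin m) (Fin m ⊕ Fin m) F) = fromBlocks A B C D :=
    ⟨_, _, _, _, (fromBlocks_toBlocks _).symm⟩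
  have hblk : ∀ s : Matrix (Fin m) (Fin m) F, s.IsSymm → s * C = 0 ∧ A * s = s * D := by
    intro s hs
    have h1 := congrArg Subtype.val (hcomm s hs)
    have h2 : (g0 : Matrix (Fin m ⊕ Fin m) (Fin m ⊕ Fin m) F) * mkMat 1 s =
        mkMat 1 s * (g0 : Matrix (Fin m ⊕ Fin m) (Fin m ⊕ Fin m) F) := h1
    rw [hG, mkMat_one] at h2
    exact comm_blocks h2
  obtain ⟨hC, lam, hAl, hDl⟩ := scalar_of_comm hm hblk
  have hmem := g0.2
  rw [hG, SymplecticGroup.fromBlocks_mem_iff] at hmem
  obtain ⟨-, hBD, hADB⟩ := hmem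
  rw [hC, hAl, hDl] at hADB
  rw [hDl] at hBD
  have hlam : lam * lam = 1 := by
    have h1 := congrFun (congrFun hADB ⟨0, hm⟩) ⟨0, hm⟩
    simpa using h1
  have hlam0 : lam ≠ 0 := by
    rintro rfl
    rw [zero_mul] at hlam
    exact zero_ne_one hlam
  have hB : B.IsSymm := by
    unfold Matrix.IsSymm
    have h1 : lam • Bᵀ = lam • B := by
      simpa using hBD
    exact smul_right_injective _ hlam0 h1
  have hsB : (lam • B).IsSymm := hB.smul lam
  have hpr : pr g0 = pr (mk 1 (lam • B) isUT_one hsB) := by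
    apply pr_eq_of_scalar lam
    show (g0 : Matrix (Fin m ⊕ Fin m) (Fin m ⊕ Fin m) F) = lam • mkMat 1 (lam • B)
    rw [hG, mkMat_one, Matrix.fromBlocks_smul, smul_smul, hlam, one_smul, smul_zero, hC, hAl,
      hDl]
  rw [hpr]
  exact Subgroup.mem_map_of_mem _ (Subgroup.subset_closure ⟨lam • B, hsB, rfl⟩)

end Cfsg.Agent.Lib.Helper11.SpRQC
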