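import Mathlib
import Cfsg.Agent.Lib.Helper11.SpRQC

set_option autoImplicit false

/-!
# S5171 piece R2C: the radical subgroup `R2` of `PSp` contains its centralizer (`m ≥ 2`)
-/

namespace Cfsg.Agent.Lib.Helper11.SpR2C

open Matrix Cfsg.Agent.Lib.Helper43.SpBasic Cfsg.Agent.Lib.Helper43.SpSylow
open Cfsg.Agent.Lib.Helper43.PSLnUT (IsUT isUT_one)
open Cfsg.Agent.Lib.Helper52.SpStmt Cfsg.Agent.Lib.Helper11.SpRQC

universe u

section

variable {m : ℕ} {F : Type u} [Field F] [Fintype F]

theorem mk_inj {a s a' s' : Matrix (Fin m) (Fin m) F} (ha : IsUT a) (hs : s.IsSymm)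
    (ha' : IsUT a') (hs' : s'.IsSymm) (h : mk a s ha hs = mk a' s' ha' hs') :
    a = a' ∧ s = s' := by
  have h1 : (⟨mk a s ha hs, mk_mem _ _ _ _⟩ :
      ↥(U : Subgroup (Matrix.symplecticGroup (Fin m) F))) =
      ⟨mk a' s' ha' hs', mk_mem _ _ _ _⟩ := Subtype.ext h
  have h2 := congrArg equivU h1
  have e1 : equivU (⟨mk a s ha hs, mk_mem _ _ _ _⟩ :
      ↥(U : Subgroup (Matrix.symplecticGroup (Fin m) F))) = (⟨a, ha⟩, ⟨s, hs⟩) :=
    equivU.right_inv (⟨a, ha⟩, ⟨s, hs⟩)
  have e2 : equivU (⟨mk a' s' ha' hs', mk_mem _ _ _ _⟩ :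
      ↥(U : Subgroup (Matrix.symplecticGroup (Fin m) F))) = (⟨a', ha'⟩, ⟨s', hs'⟩) :=
    equivU.right_inv (⟨a', ha'⟩, ⟨s', hs'⟩)
  rw [e1, e2] at h2
  have h3 := Prod.mk.inj h2
  exact ⟨congrArg Subtype.val h3.1, congrArg Subtype.val h3.2⟩

theorem altm_apply_ll (i l : Fin m) (hil : i ≠ l) (c : F) : altm i l c l l = 0 := by
  unfold altm
  rw [Matrix.add_apply, Matrix.single_apply_of_ne, Matrix.single_apply_of_ne, add_zero]
  · rintro ⟨-, h⟩
    exact hil h
  · rintro ⟨h, -⟩
    exact hil h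

theorem single_apply_ll (i l : Fin m) (hil : i ≠ l) (c : F) :
    (Matrix.single i i c : Matrix (Fin m) (Fin m) F) l l = 0 := by
  rw [Matrix.single_apply_of_ne]
  rintro ⟨h, -⟩
  exact hil h

/-- `s C = 0`, `A s = s D` for all symmetric `s` with `s l l = 0` -/
theorem tri_of_comm (l i0 : Fin m) (hl : i0 ≠ l) {A C D : Matrix (Fin m) (Fin m) F}
    (h : ∀ s : Matrix (Fin m) (Fin m) F, s.IsSymm → s l l = 0 → s * C = 0 ∧ A * s = s * D) :
    C = 0 ∧ (∀ i k : Fin m, i ≠ l → k ≠ i → A k i = 0) ∧ (∀ i : Fin m, A i i = A i0 i0) ∧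
      D i0 i0 = A i0 i0 := by
  have hC : C = 0 := by
    ext i k
    by_cases hil : i = l
    · subst hil
      have h1 := congrFun (congrFun (h (altm i0 i 1) (altm_isSymm i0 i 1)
        (altm_apply_ll i0 i hl 1)).1 i0) k
      unfold altm at h1
      rw [Matrix.add_mul, Matrix.add_apply, Matrix.single_mul_apply_same, one_mul,
        Matrix.single_mul_apply_of_ne _ _ _ _ _ hl, add_zero] at h1
      exact h1
    · have h1 := congrFun (congrFun (h (Matrix.single i i 1) (single_isSymm i 1)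
        (single_apply_ll i l hil 1)).1 i) k
      rw [Matrix.single_mul_apply_same, one_mul] at h1
      exact h1
  have hA : ∀ i k : Fin m, i ≠ l → k ≠ i → A k i = 0 := by
    intro i k hil hki
    have h1 := congrFun (congrFun (h (Matrix.single i i 1) (single_isSymm i 1)
      (single_apply_ll i l hil 1)).2 k) i
    rw [Matrix.mul_single_apply_same, mul_one, Matrix.single_mul_apply_of_ne _ _ _ _ _ hki] at h1
    exact h1
  have hAD : ∀ i : Fin m, i ≠ l → A i i = D i i := by
    intro i hil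
    have h1 := congrFun (congrFun (h (Matrix.single i i 1) (single_isSymm i 1)
      (single_apply_ll i l hil 1)).2 i) i
    rw [Matrix.mul_single_apply_same, mul_one, Matrix.single_mul_apply_same, one_mul] at h1
    exact h1
  have hil1 : ∀ i : Fin m, i ≠ l → A i i = D l l := by
    intro i hil
    have h1 := congrFun (congrFun (h (altm i l 1) (altm_isSymm i l 1)
      (altm_apply_ll i l hil 1)).2 i) l
    unfold altm at h1
    rw [Matrix.mul_add, Matrix.add_mul, Matrix.add_apply, Matrix.add_apply,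
      Matrix.mul_single_apply_same, mul_one,
      Matrix.mul_single_apply_of_ne _ _ _ _ _ (Ne.symm hil), add_zero,
      Matrix.single_mul_apply_same, one_mul,
      Matrix.single_mul_apply_of_ne _ _ _ _ _ hil, add_zero] at h1
    exact h1
  have hil2 : ∀ i : Fin m, i ≠ l → A l l = D i i := by
    intro i hil
    have h1 := congrFun (congrFun (h (altm i l 1) (altm_isSymm i l 1)
      (altm_apply_ll i l hil 1)).2 l) i
    unfold altm at h1
    rw [Matrix.mul_add, Matrix.add_mul, Matrix.add_apply, Matrix.add_apply,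
      Matrix.mul_single_apply_same, mul_one,
      Matrix.mul_single_apply_of_ne _ _ _ _ _ hil, zero_add,
      Matrix.single_mul_apply_same, one_mul,
      Matrix.single_mul_apply_of_ne _ _ _ _ _ (Ne.symm hil), zero_add] at h1
    exact h1
  refine ⟨hC, hA, ?_, (hAD i0 hl).symm⟩
  intro i
  by_cases hil : i = l
  · rw [hil, hil2 i0 hl, hAD i0 hl]
  · rw [hil1 i hil, ← hil1 i0 hl]

end

/-- [R2C] `R2` contains its centralizer in `PSp` (`m ≥ 2`) -/
theorem main : R2Cent.{u} := by
  intro m F _ _ p _ _ hm2 g hg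
  have hm : 1 ≤ m := by omega
  obtain ⟨g0, rfl⟩ := pr_surjective g
  let l : Fin m := ⟨m - 1, by omega⟩
  let i0 : Fin m := ⟨0, by omega⟩
  have hl : i0 ≠ l := by
    intro h
    have := congrArg Fin.val h
    simp only [i0, l] at this
    omega
  have hi0l : i0 < l := by
    rw [Fin.lt_def]
    simp only [i0, l]
    omega
  have hlast : ∀ i : Fin m, (i : ℕ) + 1 = m → i = l := by
    intro i hi
    apply Fin.ext
    simp only [l]
    omega
  have hcomm : ∀ (a s : Matrix (Fin m) (Fin m) F) (ha : IsUT a) (hs : s.IsSymm), s l l = 0 →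
      g0 * mk a s ha hs = mk a s ha hs * g0 := by
    intro a s ha hs hsl
    apply lift_comm hm p g0 _ (mk_mem _ _ _ _)
    apply hg
    refine Subgroup.mem_map_of_mem _ (Subgroup.subset_closure ⟨a, s, ha, hs, ?_, rfl⟩)
    intro i hi
    rw [hlast i hi]
    exact hsl
  obtain ⟨A, B, C, D, hG⟩ : ∃ A B C D : Matrix (Fin m) (Fin m) F,
      (g0 : Matrix (Fin m ⊕ Fin m) (Fin m ⊕ Fin m) F) = fromBlocks A B C D :=
    ⟨_, _, _, _, (fromBlocks_toBlocks _).symm⟩
  have hblk : ∀ s : Matrix (Fin m) (Fin m) F, s.IsSymm → s l l = 0 →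
      s * C = 0 ∧ A * s = s * D := by
    intro s hs hsl
    have h1 := congrArg Subtype.val (hcomm 1 s isUT_one hs hsl)
    have h2 : (g0 : Matrix (Fin m ⊕ Fin m) (Fin m ⊕ Fin m) F) * mkMat 1 s =
        mkMat 1 s * (g0 : Matrix (Fin m ⊕ Fin m) (Fin m ⊕ Fin m) F) := h1
    rw [hG, mkMat_one] at h2
    exact comm_blocks h2
  obtain ⟨hC, hA, hdiag, hD0⟩ := tri_of_comm l i0 hl hblk
  have hmem := g0.2
  rw [hG, SymplecticGroup.fromBlocks_mem_iff] at hmem
  obtain ⟨-, -, hADB⟩ := hmem
  rw [hC] at hADB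
  have hlam : A i0 i0 * A i0 i0 = 1 := by
    have h1 := congrFun (congrFun hADB i0) i0
    rw [Matrix.transpose_zero, Matrix.zero_mul, sub_zero, Matrix.one_apply_eq,
      Matrix.mul_apply, Finset.sum_eq_single i0] at h1
    · rw [Matrix.transpose_apply, hD0] at h1
      exact h1
    · intro k _ hk
      rw [Matrix.transpose_apply, hA i0 k hl hk, zero_mul]
    · intro h
      exact absurd (Finset.mem_univ _) h
  set lam := A i0 i0 with hlamdef
  -- the rescaled element
  have hhmem : lam • (g0 : Matrix (Fin m ⊕ Fin m) (Fin m ⊕ Fin m) F) ∈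
      Matrix.symplecticGroup (Fin m) F := by
    rw [SymplecticGroup.mem_iff, Matrix.transpose_smul, Matrix.smul_mul, Matrix.mul_smul,
      Matrix.smul_mul, smul_smul, hlam, one_smul]
    exact SymplecticGroup.mem_iff.1 g0.2
  let h : Matrix.symplecticGroup (Fin m) F := ⟨lam • (g0 : Matrix _ _ F), hhmem⟩
  have hhval : (h : Matrix (Fin m ⊕ Fin m) (Fin m ⊕ Fin m) F) =
      lam • (g0 : Matrix (Fin m ⊕ Fin m) (Fin m ⊕ Fin m) F) := rfl
  have hpr : pr g0 = pr h := by
    have h1 : pr h = pr g0 := pr_eq_of_scalar lam hhval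
    exact h1.symm
  have hhU : h ∈ (U : Subgroup (Matrix.symplecticGroup (Fin m) F)) := by
    rw [mem_U, hhval, hG, Matrix.fromBlocks_smul, toBlocks_fromBlocks₂₁, toBlocks_fromBlocks₁₁]
    refine ⟨by rw [hC, smul_zero], ?_, ?_⟩
    · intro k i hik
      rw [Matrix.smul_apply, smul_eq_mul]
      have hil : i ≠ l := by
        intro hil
        rw [hil, Fin.lt_def] at hik
        have := k.2
        simp only [l] at hik
        omega
      rw [hA i k hil (ne_of_gt hik), mul_zero]
    · intro k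
      rw [Matrix.smul_apply, smul_eq_mul, hdiag k]
      exact hlam
  obtain ⟨a, s, ha, hs, hmk⟩ := exists_mk hhU
  have hut : IsUT (1 + Matrix.single i0 l (1 : F)) := isUT_one_add_single hi0l 1
  have hcomm2 : h * mk (1 + Matrix.single i0 l (1 : F)) 0 hut Matrix.isSymm_zero =
      mk (1 + Matrix.single i0 l (1 : F)) 0 hut Matrix.isSymm_zero * h := by
    have h1 := congrArg Subtype.val (hcomm (1 + Matrix.single i0 l (1 : F)) 0 hut
      Matrix.isSymm_zero (by rw [Matrix.zero_apply]))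
    apply Subtype.ext
    rw [Submonoid.coe_mul, Submonoid.coe_mul] at h1 ⊢
    rw [hhval, Matrix.smul_mul, Matrix.mul_smul, h1]
  have hsl : s l l = 0 := by
    rw [hmk] at hcomm2
    have hs1 : (s + a * (0 : Matrix (Fin m) (Fin m) F) * aᵀ).IsSymm := by
      rw [Matrix.mul_zero, Matrix.zero_mul, add_zero]
      exact hs
    have hs2 : ((0 : Matrix (Fin m) (Fin m) F) + (1 + Matrix.single i0 l (1 : F)) * s *
        (1 + Matrix.single i0 l (1 : F))ᵀ).IsSymm := by
      unfold Matrix.IsSymm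
      rw [zero_add, Matrix.transpose_mul, Matrix.transpose_mul, Matrix.transpose_transpose,
        hs.eq, Matrix.mul_assoc]
    rw [mk_mul a s _ 0 ha hs hut Matrix.isSymm_zero (IsUT.mul ha hut) hs1,
      mk_mul _ 0 a s hut Matrix.isSymm_zero ha hs (IsUT.mul hut ha) hs2] at hcomm2
    have h3 := (mk_inj _ _ _ _ hcomm2).2
    have h4 := congrFun (congrFun h3 i0) l
    rw [Matrix.mul_zero, Matrix.zero_mul, add_zero, zero_add, Matrix.transpose_add,
      Matrix.transpose_one, Matrix.transpose_single, Matrix.add_mul, Matrix.one_mul,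
      Matrix.mul_add, Matrix.mul_one, Matrix.add_apply, Matrix.add_apply,
      Matrix.single_mul_apply_same, one_mul,
      Matrix.mul_single_apply_of_ne _ _ _ _ _ (Ne.symm hl), add_zero] at h4
    exact left_eq_add.1 h4
  rw [hpr, hmk]
  refine Subgroup.mem_map_of_mem _ (Subgroup.subset_closure ⟨a, s, ha, hs, ?_, rfl⟩)
  intro i hi
  rw [hlast i hi]
  exact hsl

end Cfsg.Agent.Lib.Helper11.SpR2C
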