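import Mathlib
import Cfsg.Agent.Lib.Helper41.TMTwoStmt
import Cfsg.Agent.Lib.Helper44.OTyp1
import Cfsg.Agent.Lib.Helper44.Inv8
import Cfsg.Agent.Lib.Helper44.NegPairs

/-!
# S5987 (r = 2 block) piece TWOMINUS (helper11)

`V = A ⊥ B` for the standard minus form, `A`, `B` nondegenerate of even finrank: `A` or `B` is of
plus type.  Otherwise both have coordinates of minus type with the same parameter `ζ`
(`OTyp1.coordM`, `ell_change`), and gluing the two anisotropic planes along a similarity of factor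
`-1` (multiplication by an element of norm `-1`) gives a totally singular subspace of finrank `d`,
against `Inv8.minus_ts_le`.
-/

set_option autoImplicit false

universe u

namespace Cfsg.Agent.Lib.Helper11.TM2TWOMINUS

open Cfsg.Agent.Lib.Helper41.TMTwoStmt
open Cfsg.Agent.Lib.Helper45.OMiStmt (M Aniso FxM NDegM StabM TopNDM)
open Module QuadraticMap
open Cfsg.Agent.Lib.Helper44.QSpace Cfsg.Agent.Lib.Helper44.QClass Cfsg.Agent.Lib.Helper44.OTyp1
  Cfsg.Agent.Lib.Helper44.NegPairs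

section coords

variable {F : Type*} [Field F]

/-- the embedding `(s, z) ↦ (s, 0; z)` -/
def iota (k : ℕ) : ((Fin k → F) × (Fin 2 → F)) →ₗ[F] ((Fin k ⊕ Fin k) ⊕ Fin 2 → F) where
  toFun p := Sum.elim (Sum.elim p.1 0) p.2
  map_add' p q := by
    funext c
    rcases c with (c | c) | c <;> simp
  map_smul' a p := by
    funext c
    rcases c with (c | c) | c <;> simp

/-- the embedding `s ↦ (s, 0)` -/
def iota0 (k : ℕ) : (Fin k → F) →ₗ[F] ((Fin k ⊕ Fin k) ⊕ Fin 0 → F) where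
  toFun s := Sum.elim (Sum.elim s 0) (fun t => t.elim0)
  map_add' p q := by
    funext c
    rcases c with (c | c) | c
    · simp
    · simp
    · exact c.elim0
  map_smul' a p := by
    funext c
    rcases c with (c | c) | c
    · simp
    · simp
    · exact c.elim0

/-- multiplication by `c + s ω` in the basis `1, ω`, `ω ^ 2 = ω - ζ` -/
def phi (c s ζ : F) : (Fin 2 → F) →ₗ[F] (Fin 2 → F) where
  toFun z := ![c * z 0 - ζ * s * z 1, s * z 0 + (c + s) * z 1]
  map_add' z w := by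
    funext t
    fin_cases t <;> simp <;> ring
  map_smul' a z := by
    funext t
    fin_cases t <;> simp <;> ring

theorem phi_norm (c s ζ : F) (z : Fin 2 → F) :
    (phi c s ζ z 0) ^ 2 + (phi c s ζ z 0) * (phi c s ζ z 1) + ζ * (phi c s ζ z 1) ^ 2 =
      (c ^ 2 + c * s + ζ * s ^ 2) * (z 0 ^ 2 + z 0 * z 1 + ζ * z 1 ^ 2) := by
  show (c * z 0 - ζ * s * z 1) ^ 2 + (c * z 0 - ζ * s * z 1) * (s * z 0 + (c + s) * z 1) +
      ζ * (s * z 0 + (c + s) * z 1) ^ 2 = _
  ring

theorem exists_norm_neg_one [Fintype F] (hq : Odd (Fintype.card F)) (h2 : (2 : F) ≠ 0) (ζ : F)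
    (hζ : ∀ t : F, t ^ 2 + t + ζ ≠ 0) : ∃ c s : F, c ^ 2 + c * s + ζ * s ^ 2 = -1 := by
  have h4 : (4 : F) ≠ 0 := by
    have : (4 : F) = 2 * 2 := by norm_num
    rw [this]
    exact mul_ne_zero h2 h2
  have hD : ζ - 1 / 4 ≠ 0 := by
    intro h
    apply hζ (-1 / 2)
    have : ζ = 1 / 4 := sub_eq_zero.mp h
    rw [this]
    field_simp
    ring
  obtain ⟨X, s, h⟩ := FiniteField.exists_root_sum_quadratic
    (f := (Polynomial.X : Polynomial F) ^ 2 + Polynomial.C 1)
    (g := Polynomial.C (ζ - 1 / 4) * Polynomial.X ^ 2 + Polynomial.C 0 * Polynomial.X +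
      Polynomial.C 0)
    (Polynomial.degree_X_pow_add_C (by norm_num) 1) (Polynomial.degree_quadratic hD)
    (Nat.odd_iff.mp hq)
  simp only [Polynomial.eval_add, Polynomial.eval_pow, Polynomial.eval_X, Polynomial.eval_C,
    Polynomial.eval_mul] at h
  refine ⟨X - s / 2, s, ?_⟩
  field_simp
  field_simp at h
  linear_combination h

end coords

section abs

variable {F : Type*} [Field F] [Fintype F] {V : Type u} [AddCommGroup V] [Module F V]
  [FiniteDimensional F V]

omit [Fintype F] [FiniteDimensional F V] in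
/-- a totally singular subspace of half dimension from hyperbolic coordinates -/
theorem ts_of_coordP (Q : QuadraticForm F V) (A : Submodule F V) (k : ℕ)
    (Ψ : A ≃ₗ[F] ((Fin k ⊕ Fin k) ⊕ Fin 0 → F))
    (hΨ : ∀ v : A, Q (v : V) = ∑ i, Ψ v (.inl (.inl i)) * Ψ v (.inl (.inr i))) :
    ∃ U : Submodule F V, U ≤ A ∧ (∀ u ∈ U, Q u = 0) ∧ finrank F U = k := by
  set j : (Fin k → F) →ₗ[F] V := A.subtype ∘ₗ Ψ.symm.toLinearMap ∘ₗ iota0 k with hj
  have hjv : ∀ s, j s = ((Ψ.symm (iota0 k s) : A) : V) := fun s => rfl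
  refine ⟨LinearMap.range j, ?_, ?_, ?_⟩
  · rintro _ ⟨s, rfl⟩
    rw [hjv]
    exact (Ψ.symm (iota0 k s)).2
  · rintro _ ⟨s, rfl⟩
    rw [hjv, hΨ, LinearEquiv.apply_symm_apply]
    apply Finset.sum_eq_zero
    intro i _
    show s i * (0 : F) = 0
    ring
  · rw [LinearMap.finrank_range_of_inj, Module.finrank_fin_fun]
    intro s t hst
    rw [hjv, hjv] at hst
    have h1 := Ψ.symm.injective (Subtype.ext hst)
    funext i
    have := congrFun h1 (.inl (.inl i))
    exact this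

theorem two_minus_abs (hq : Odd (Fintype.card F)) (h2 : (2 : F) ≠ 0) (Q : QuadraticForm F V)
    (A B : Submodule F V) (hA : Sep (res Q A)) (hB : Sep (res Q B))
    (hAB : ∀ u ∈ A, ∀ v ∈ B, polar Q u v = 0) (hinf : A ⊓ B = ⊥)
    (e f : ℕ) (hAe : finrank F A = 2 * e) (hBf : finrank F B = 2 * f) :
    (∃ U : Submodule F V, U ≤ A ∧ (∀ u ∈ U, Q u = 0) ∧ finrank F U = e) ∨
    (∃ U : Submodule F V, U ≤ B ∧ (∀ u ∈ U, Q u = 0) ∧ finrank F U = f) ∨
    (∃ T : Submodule F V, (∀ u ∈ T, Q u = 0) ∧ finrank F T = e + f) := by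
  rcases e with _ | e'
  · left
    exact ⟨⊥, bot_le, fun u hu => by rw [(Submodule.mem_bot F).mp hu, map_zero], finrank_bot F V⟩
  rcases f with _ | f'
  · right; left
    exact ⟨⊥, bot_le, fun u hu => by rw [(Submodule.mem_bot F).mp hu, map_zero], finrank_bot F V⟩
  rcases exists_hyp_even e' A (res Q A) hAe hA with
    ⟨eA, fA, hHA⟩ | ⟨eA, fA, xA, yA, ζ, hHA, hEA, hoA⟩
  · left
    obtain ⟨Ψ, hΨ⟩ := coordP (res Q A) hHA hAe
    exact ts_of_coordP Q A (e' + 1) Ψ hΨ
  rcases exists_hyp_even f' B (res Q B) hBf hB with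
    ⟨eB, fB, hHB⟩ | ⟨eB, fB, xB, yB, ζ₂, hHB, hEB, hoB⟩
  · right; left
    obtain ⟨Ψ, hΨ⟩ := coordP (res Q B) hHB hBf
    exact ts_of_coordP Q B (f' + 1) Ψ hΨ
  right; right
  obtain ⟨α, β, hEB'⟩ := ell_change hEB hEA.2.2.2
  have hoB' : ∀ i, polar (res Q B) (eB i) xB = 0 ∧
      polar (res Q B) (eB i) (α • xB + β • yB) = 0 ∧
      polar (res Q B) (fB i) xB = 0 ∧ polar (res Q B) (fB i) (α • xB + β • yB) = 0 := by
    intro i
    obtain ⟨a1, a2, a3, a4⟩ := hoB i
    refine ⟨a1, ?_, a3, ?_⟩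
    · rw [polar_add_right, polar_smul_r, polar_smul_r, a1, a2, mul_zero, mul_zero, add_zero]
    · rw [polar_add_right, polar_smul_r, polar_smul_r, a3, a4, mul_zero, mul_zero, add_zero]
  obtain ⟨ΨA, hΨA⟩ := coordM (res Q A) hHA hEA hoA hAe
  obtain ⟨ΨB, hΨB⟩ := coordM (res Q B) hHB hEB' hoB' hBf
  obtain ⟨c, s, hcs⟩ := exists_norm_neg_one hq h2 ζ hEA.2.2.2
  set jA : ((Fin e' → F) × (Fin 2 → F)) →ₗ[F] V :=
    A.subtype ∘ₗ ΨA.symm.toLinearMap ∘ₗ iota e' with hjA
  set jB : ((Fin f' → F) × (Fin 2 → F)) →ₗ[F] V :=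
    B.subtype ∘ₗ ΨB.symm.toLinearMap ∘ₗ iota f' with hjB
  have hjAv : ∀ p, jA p = ((ΨA.symm (iota e' p) : A) : V) := fun p => rfl
  have hjBv : ∀ p, jB p = ((ΨB.symm (iota f' p) : B) : V) := fun p => rfl
  have hQA : ∀ p : (Fin e' → F) × (Fin 2 → F),
      Q (jA p) = p.2 0 ^ 2 + p.2 0 * p.2 1 + ζ * p.2 1 ^ 2 := by
    intro p
    rw [hjAv]
    have := hΨA (ΨA.symm (iota e' p))
    rw [res_apply] at this
    rw [this, LinearEquiv.apply_symm_apply]
    have h0 : ∑ i, (iota e' p) (.inl (.inl i)) * (iota e' p) (.inl (.inr i)) = 0 := by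
      apply Finset.sum_eq_zero
      intro i _
      show p.1 i * (0 : F) = 0
      ring
    rw [h0, zero_add]
    rfl
  have hQB : ∀ p : (Fin f' → F) × (Fin 2 → F),
      Q (jB p) = p.2 0 ^ 2 + p.2 0 * p.2 1 + ζ * p.2 1 ^ 2 := by
    intro p
    rw [hjBv]
    have := hΨB (ΨB.symm (iota f' p))
    rw [res_apply] at this
    rw [this, LinearEquiv.apply_symm_apply]
    have h0 : ∑ i, (iota f' p) (.inl (.inl i)) * (iota f' p) (.inl (.inr i)) = 0 := by
      apply Finset.sum_eq_zero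
      intro i _
      show p.1 i * (0 : F) = 0
      ring
    rw [h0, zero_add]
    rfl
  have hjAinj : ∀ p, jA p = 0 → p = 0 := by
    intro p hp
    rw [hjAv] at hp
    have h1 : ΨA.symm (iota e' p) = 0 := Subtype.ext hp
    have h3 : iota e' p = 0 := by
      have := congrArg ΨA h1
      rwa [LinearEquiv.apply_symm_apply, map_zero] at this
    apply Prod.ext
    · funext i
      exact congrFun h3 (.inl (.inl i))
    · funext t
      exact congrFun h3 (.inr t)
  have hjBinj : ∀ p, jB p = 0 → p = 0 := by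
    intro p hp
    rw [hjBv] at hp
    have h1 : ΨB.symm (iota f' p) = 0 := Subtype.ext hp
    have h3 : iota f' p = 0 := by
      have := congrArg ΨB h1
      rwa [LinearEquiv.apply_symm_apply, map_zero] at this
    apply Prod.ext
    · funext i
      exact congrFun h3 (.inl (.inl i))
    · funext t
      exact congrFun h3 (.inr t)
  have hjAmem : ∀ p, jA p ∈ A := fun p => (ΨA.symm (iota e' p)).2
  have hjBmem : ∀ p, jB p ∈ B := fun p => (ΨB.symm (iota f' p)).2
  set j : (((Fin e' → F) × (Fin f' → F)) × (Fin 2 → F)) →ₗ[F] V :=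
    jA ∘ₗ (LinearMap.prod (LinearMap.fst F _ _ ∘ₗ LinearMap.fst F _ _) (LinearMap.snd F _ _)) +
    jB ∘ₗ (LinearMap.prod (LinearMap.snd F _ _ ∘ₗ LinearMap.fst F _ _)
      (phi c s ζ ∘ₗ LinearMap.snd F _ _)) with hj
  have hjv : ∀ p : ((Fin e' → F) × (Fin f' → F)) × (Fin 2 → F),
      j p = jA (p.1.1, p.2) + jB (p.1.2, phi c s ζ p.2) := fun p => rfl
  refine ⟨LinearMap.range j, ?_, ?_⟩
  · rintro _ ⟨p, rfl⟩
    rw [hjv, q_add, hQA, hQB, hAB _ (hjAmem _) _ (hjBmem _), add_zero]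
    have := phi_norm c s ζ p.2
    rw [hcs] at this
    show p.2 0 ^ 2 + p.2 0 * p.2 1 + ζ * p.2 1 ^ 2 +
      ((phi c s ζ p.2) 0 ^ 2 + (phi c s ζ p.2) 0 * (phi c s ζ p.2) 1 +
        ζ * (phi c s ζ p.2) 1 ^ 2) = 0
    rw [this]
    ring
  · rw [LinearMap.finrank_range_of_inj, Module.finrank_prod, Module.finrank_prod,
      Module.finrank_fin_fun, Module.finrank_fin_fun, Module.finrank_fin_fun]
    · omega
    · rw [injective_iff_map_eq_zero]
      intro p hp
      rw [hjv] at hp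
      have hmem : jA (p.1.1, p.2) ∈ A ⊓ B := by
        refine ⟨hjAmem _, ?_⟩
        have : jA (p.1.1, p.2) = -jB (p.1.2, phi c s ζ p.2) := eq_neg_of_add_eq_zero_left hp
        rw [this]
        exact B.neg_mem (hjBmem _)
      rw [hinf, Submodule.mem_bot] at hmem
      have h1 := hjAinj _ hmem
      rw [hmem, zero_add] at hp
      have h2' := hjBinj _ hp
      have e1 : p.1.1 = 0 := congrArg Prod.fst h1
      have e2 : p.2 = 0 := congrArg Prod.snd h1
      have e3 : p.1.2 = 0 := congrArg Prod.fst h2'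
      apply Prod.ext
      · apply Prod.ext
        · exact e1
        · exact e3
      · exact e2

end abs

theorem main : TwoMinus.{u} := by
  intro F _ _ hq d hd a b hab A B hA hB hAB hsup hev
  classical
  have h2 : (2 : F) ≠ 0 := by
    apply Ring.two_ne_zero
    intro hchar
    have := FiniteField.even_card_of_char_two hchar
    have := Nat.odd_iff.mp hq
    omega
  have hab' : ∀ z₁ z₂ : F, z₁ ^ 2 + a * z₁ * z₂ + b * z₂ ^ 2 = 0 → z₁ = 0 ∧ z₂ = 0 := hab
  have hSepV : Sep (minusQ (d - 1) F a b) := sep_minusQ h2 (d - 1) a b hab'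
  have hfinV : finrank F (M d → F) = 2 * d := by
    rw [Module.finrank_fintype_fun_eq_card]
    simp only [Fintype.card_sum, Fintype.card_fin]
    omega
  have hSepA : Sep (res (minusQ (d - 1) F a b) A) := by
    intro x hx
    by_contra hne
    have hne' : (x : M d → F) ≠ 0 := fun h => hne (Subtype.ext h)
    obtain ⟨-, y, hy, hy'⟩ := hA x x.2 hne'
    exact hy' (hx ⟨y, hy⟩)
  have hSepB : Sep (res (minusQ (d - 1) F a b) B) := by
    intro x hx
    by_contra hne
    have hne' : (x : M d → F) ≠ 0 := fun h => hne (Subtype.ext h)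
    obtain ⟨-, y, hy, hy'⟩ := hB x x.2 hne'
    exact hy' (hx ⟨y, hy⟩)
  have hinf : A ⊓ B = ⊥ := by
    rw [eq_bot_iff]
    rintro x ⟨hxA, hxB⟩
    rw [Submodule.mem_bot]
    by_contra hne
    obtain ⟨⟨y, hy, hy'⟩, -⟩ := hA x hxA hne
    exact hy' (hAB y hy x hxB)
  have hdim : finrank F A + finrank F B = 2 * d := by
    have := Submodule.finrank_sup_add_finrank_inf_eq A B
    rw [hinf, hsup, finrank_bot, finrank_top, hfinV] at this
    omega
  obtain ⟨e, he⟩ := hev
  have hAe : finrank F A = 2 * e := by omega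
  have hBf : finrank F B = 2 * (d - e) := by omega
  have hed : e ≤ d := by omega
  rcases two_minus_abs hq h2 (minusQ (d - 1) F a b) A B hSepA hSepB hAB hinf e (d - e)
      hAe hBf with ⟨U, hU, hUts, hUd⟩ | ⟨U, hU, hUts, hUd⟩ | ⟨T, hTts, hTd⟩
  · left
    have hUd' : finrank F U = e := hUd
    refine ⟨U, hU, hUts, ?_⟩
    show 2 * finrank F U = finrank F A
    omega
  · right
    have hUd' : finrank F U = d - e := hUd
    refine ⟨U, hU, hUts, ?_⟩
    show 2 * finrank F U = finrank F B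
    omega
  · exfalso
    have hTd' : finrank F T = e + (d - e) := hTd
    have h1 : finrank F T ≤ d - 1 := Cfsg.Agent.Lib.Helper44.Inv8.minus_ts_le hSepV hab' hTts
    omega

end Cfsg.Agent.Lib.Helper11.TM2TWOMINUS
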