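import Mathlib
import Cfsg.Agent.Lib.Helper44.TPStmt

/-!
# S5973 piece CANCEL: Witt cancellation of a plus-type summand (helper11)

Generic part: for a quadratic form `Q` on a finite-dimensional space, the pairing inequality
`dim X + dim K_Y ≤ dim Y + dim K_X`, then the Witt-index argument.
-/

set_option autoImplicit false

universe u

namespace Cfsg.Agent.Lib.Helper11.TPCANCEL

open Cfsg.Agent.Lib.Helper44.TPStmt Module QuadraticMap

section gen

variable {F : Type*} [Field F] {V : Type*} [AddCommGroup V] [Module F V] [FiniteDimensional F V]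
variable (Q : QuadraticForm F V)

/-- the pairing inequality -/
theorem pairing (X Y KX KY : Submodule F V)
    (hKX : ∀ x ∈ X, (∀ y ∈ Y, polar Q x y = 0) → x ∈ KX)
    (hKY : KY ≤ Y) (hKY' : ∀ v ∈ KY, ∀ x ∈ X, polar Q x v = 0) :
    finrank F X + finrank F KY ≤ finrank F Y + finrank F KX := by
  classical
  set f : X →ₗ[F] (Y →ₗ[F] F) := (QuadraticMap.polarBilin Q).compl₁₂ X.subtype Y.subtype with hf
  have hfa : ∀ (x : X) (y : Y), f x y = polar Q (x : V) (y : V) := by
    intro x y
    simp [hf, LinearMap.compl₁₂_apply]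
  have h1 := LinearMap.finrank_range_add_finrank_ker f
  -- kernel
  have hker : finrank F (LinearMap.ker f) ≤ finrank F KX := by
    rw [← Submodule.finrank_map_subtype_eq X (LinearMap.ker f)]
    apply Submodule.finrank_mono
    rintro v ⟨x, hx, rfl⟩
    apply hKX _ x.2
    intro y hy
    have hx' : f x = 0 := hx
    have := hfa x ⟨y, hy⟩
    rw [hx'] at this
    simpa using this.symm
  -- range
  set KY' : Submodule F Y := Submodule.comap Y.subtype KY with hKYd
  have hKYf : finrank F KY' = finrank F KY := by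
    rw [← Submodule.finrank_map_subtype_eq Y KY', hKYd, Submodule.map_comap_subtype,
      inf_eq_right.mpr hKY]
  have hrange : LinearMap.range f ≤ KY'.dualAnnihilator := by
    rintro φ ⟨x, rfl⟩
    rw [Submodule.mem_dualAnnihilator]
    intro y hy
    rw [hfa]
    exact hKY' _ hy _ x.2
  have h2 : finrank F (LinearMap.range f) ≤ finrank F KY'.dualAnnihilator :=
    Submodule.finrank_mono hrange
  have h3 : finrank F KY' + finrank F KY'.dualAnnihilator = finrank F Y :=
    Subspace.finrank_add_finrank_dualAnnihilator_eq KY'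
  have h1' : finrank F (LinearMap.range f) + finrank F (LinearMap.ker f) = finrank F X := h1
  clear_value KY' f
  omega

/-- the orthogonal of a subspace for the polar form -/
def perp (T : Submodule F V) : Submodule F V where
  carrier := {v | ∀ t ∈ T, polar Q t v = 0}
  add_mem' := by
    intro a b ha hb t ht
    rw [polar_add_right, ha t ht, hb t ht, add_zero]
  zero_mem' := by
    intro t ht
    simp
  smul_mem' := by
    intro c a ha t ht
    rw [polar_smul_right, ha t ht, smul_zero]

theorem mem_perp (T : Submodule F V) (v : V) : v ∈ perp Q T ↔ ∀ t ∈ T, polar Q t v = 0 := Iff.rfl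

/-- polar vanishes on a totally singular subspace -/
theorem polar_ts (T : Submodule F V) (hT : ∀ u ∈ T, Q u = 0) (x y : V) (hx : x ∈ T) (hy : y ∈ T) :
    polar Q x y = 0 := by
  unfold polar
  rw [hT _ (T.add_mem hx hy), hT x hx, hT y hy]
  simp

/-- adding a singular vector orthogonal to a totally singular subspace -/
theorem ts_sup (T : Submodule F V) (hT : ∀ u ∈ T, Q u = 0) (w : V) (hw : Q w = 0)
    (hTw : ∀ t ∈ T, polar Q t w = 0) : ∀ u ∈ T ⊔ Submodule.span F {w}, Q u = 0 := by
  intro u hu
  obtain ⟨t, ht, s, hs, rfl⟩ := Submodule.mem_sup.mp hu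
  obtain ⟨c, rfl⟩ := Submodule.mem_span_singleton.mp hs
  rw [QuadraticMap.map_add Q t (c • w), hT t ht, QuadraticMap.map_smul, hw, polar_smul_right,
    hTw t ht]
  simp

theorem cancel_gen (A B : Submodule F V)
    (hA : ∀ a ∈ A, (∀ x ∈ A, polar Q x a = 0) → a = 0)
    (hB : ∀ b ∈ B, (∀ x ∈ B, polar Q x b = 0) → b = 0)
    (hAB : ∀ u ∈ A, ∀ v ∈ B, polar Q u v = 0)
    (U : Submodule F V) (hU : U ≤ A ⊔ B) (hUts : ∀ u ∈ U, Q u = 0)
    (hUd : 2 * finrank F U = finrank F ↥(A ⊔ B))
    (TA : Submodule F V) (hTA : TA ≤ A) (hTAts : ∀ u ∈ TA, Q u = 0)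
    (hTAd : 2 * finrank F TA = finrank F A) :
    ∃ TB : Submodule F V, TB ≤ B ∧ (∀ u ∈ TB, Q u = 0) ∧ 2 * finrank F TB = finrank F B := by
  classical
  -- 1. A ⊓ B = ⊥
  have hinf : A ⊓ B = ⊥ := by
    rw [eq_bot_iff]
    rintro x ⟨hxA, hxB⟩
    rw [Submodule.mem_bot]
    exact hA x hxA (fun a ha => hAB a ha x hxB)
  have hdim : finrank F ↥(A ⊔ B) = finrank F A + finrank F B := by
    have := Submodule.finrank_sup_add_finrank_inf_eq A B
    rw [hinf, finrank_bot] at this
    omega
  -- 2. TA^⊥ ∩ A = TA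
  have h2 : A ⊓ perp Q TA = TA := by
    symm
    apply Submodule.eq_of_le_of_finrank_le
    · intro t ht
      exact ⟨hTA ht, fun s hs => polar_ts Q TA hTAts s t hs ht⟩
    · have := pairing Q TA A ⊥ (A ⊓ perp Q TA)
        (fun x hx h => by
          rw [Submodule.mem_bot]
          exact hA x (hTA hx) (fun y hy => by rw [polar_comm]; exact h y hy))
        inf_le_left (fun v hv x hx => hv.2 x hx)
      rw [finrank_bot] at this
      omega
  -- 3. TB of maximal finrank
  let P : ℕ → Prop := fun k => ∃ M : Submodule F V, M ≤ B ∧ (∀ u ∈ M, Q u = 0) ∧ finrank F M = k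
  have hP0 : P 0 := ⟨⊥, bot_le, by
    intro u hu
    rw [Submodule.mem_bot] at hu
    subst hu
    simp, finrank_bot F V⟩
  have hspec := Nat.findGreatest_spec (P := P) (Nat.zero_le (finrank F V)) hP0
  obtain ⟨TB, hTBB, hTBts, hTBd⟩ := hspec
  have hmax : ∀ M : Submodule F V, M ≤ B → (∀ u ∈ M, Q u = 0) → finrank F M ≤ finrank F TB := by
    intro M hM hMts
    rw [hTBd]
    exact Nat.le_findGreatest (P := P) (Submodule.finrank_le M) ⟨M, hM, hMts, rfl⟩
  have hmem : ∀ b ∈ B, Q b = 0 → (∀ t ∈ TB, polar Q t b = 0) → b ∈ TB := by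
    intro b hb hQb hperp
    have hle : TB ≤ TB ⊔ Submodule.span F {b} := le_sup_left
    have hfin := hmax (TB ⊔ Submodule.span F {b})
      (sup_le hTBB (by rw [Submodule.span_singleton_le_iff_mem]; exact hb))
      (ts_sup Q TB hTBts b hQb hperp)
    have heq := Submodule.eq_of_le_of_finrank_le hle hfin
    rw [heq]
    exact Submodule.mem_sup_right (Submodule.mem_span_singleton_self b)
  have h3 : 2 * finrank F TB ≤ finrank F B := by
    have := pairing Q TB B ⊥ TB
      (fun x hx h => by
        rw [Submodule.mem_bot]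
        exact hB x (hTBB hx) (fun y hy => by rw [polar_comm]; exact h y hy))
      hTBB (fun v hv x hx => polar_ts Q TB hTBts x v hx hv)
    rw [finrank_bot] at this
    omega
  -- 4. finrank U ≤ finrank (TA ⊔ TB)
  have h4 : finrank F U ≤ finrank F ↥(TA ⊔ TB) := by
    have := pairing Q U (TA ⊔ TB) (U ⊓ (TA ⊔ TB)) (U ⊓ (TA ⊔ TB))
      (fun x hx h => by
        refine ⟨hx, ?_⟩
        obtain ⟨a, ha, b, hb, rfl⟩ := Submodule.mem_sup.mp (hU hx)
        have haT : a ∈ TA := by
          rw [← h2]
          refine ⟨ha, fun t ht => ?_⟩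
          have := h t (Submodule.mem_sup_left ht)
          rw [polar_add_left, polar_comm Q b t, hAB t (hTA ht) b hb, add_zero] at this
          rw [polar_comm]; exact this
        have hQb : Q b = 0 := by
          have := hUts _ hx
          rw [QuadraticMap.map_add Q a b, hTAts a haT, hAB a ha b hb] at this
          simpa using this
        have hbT : b ∈ TB := by
          apply hmem b hb hQb
          intro t ht
          have := h t (Submodule.mem_sup_right ht)
          rw [polar_add_left, hAB a ha t (hTBB ht), zero_add] at this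
          rw [polar_comm]; exact this
        exact Submodule.add_mem _ (Submodule.mem_sup_left haT) (Submodule.mem_sup_right hbT))
      inf_le_right (fun v hv x hx => polar_ts Q U hUts x v hx hv.1)
    omega
  have h5 := Submodule.finrank_add_le_finrank_add_finrank TA TB
  exact ⟨TB, hTBB, hTBts, by omega⟩

end gen

/-- `Cfsg.quadFormPlus` as a quadratic form (local copy). -/
def plusForm (m : ℕ) (F : Type*) [Field F] : QuadraticForm F (Fin m ⊕ Fin m → F) :=
  (∑ i : Fin m, QuadraticMap.proj (R := F) (Sum.inl i) (Sum.inr i)).copy (Cfsg.quadFormPlus m F)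
    (by funext v; simp [Cfsg.quadFormPlus])

theorem coe_plusForm (m : ℕ) (F : Type*) [Field F] :
    ⇑(plusForm m F) = Cfsg.quadFormPlus m F := rfl

theorem main : Cancel.{u} := by
  intro F _ _ d A B hA hB hAB hP hPA
  obtain ⟨U, hU, hUts, hUd⟩ := hP
  obtain ⟨TA, hTA, hTAts, hTAd⟩ := hPA
  have key := cancel_gen (plusForm d F) A B
    (fun a ha h => by
      by_contra hne
      obtain ⟨⟨x, hx, hx'⟩, -⟩ := hA a ha hne
      exact hx' (h x hx))
    (fun b hb h => by
      by_contra hne
      obtain ⟨⟨x, hx, hx'⟩, -⟩ := hB b hb hne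
      exact hx' (h x hx))
    hAB U hU hUts hUd TA hTA hTAts hTAd
  obtain ⟨TB, hTB, hTBts, hTBd⟩ := key
  exact ⟨TB, hTB, hTBts, hTBd⟩

end Cfsg.Agent.Lib.Helper11.TPCANCEL
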