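import Mathlib
import Cfsg.Agent.Lib.Helper44.TPStmt

/-!
# S5973 piece G1O (helper11): `i` odd, `i ≤ m`, `2 (m % i) ≤ (2 d) % (2 i)`: every isometry of
order `r` fixes a totally singular `m`-space.  Glue of FixND, Perp, InvDim, HalfOdd, InvSub, FxType.
-/

set_option autoImplicit false

universe u

namespace Cfsg.Agent.Lib.Helper11.TPG1O

open Cfsg.Agent.Lib.Helper44.TPStmt
open Cfsg.Agent.Lib.Helper37.HypStmt (cc IPos)

lemma mem_Fx' {F : Type u} [Field F] {d : ℕ} (x : Matrix (J d) (J d) F) (v : J d → F) :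
    v ∈ Fx x ↔ x.mulVec v = v := by
  unfold Fx
  rw [LinearMap.mem_ker, LinearMap.sub_apply, sub_eq_zero, Matrix.toLin'_apply]
  rfl

lemma stab_of_le_Fx' {F : Type u} [Field F] {d : ℕ} (x : Matrix (J d) (J d) F)
    {W : Submodule F (J d → F)} (h : W ≤ Fx x) : Stab x W := by
  intro v hv
  obtain ⟨w, hw, rfl⟩ := Submodule.mem_map.mp hv
  have h1 := (mem_Fx' x w).mp (h hw)
  rw [Matrix.toLin'_apply, h1]
  exact hw

lemma stab_sup' {F : Type u} [Field F] {d : ℕ} {x : Matrix (J d) (J d) F}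
    {W₁ W₂ : Submodule F (J d → F)} (h1 : Stab x W₁) (h2 : Stab x W₂) : Stab x (W₁ ⊔ W₂) := by
  unfold Stab at *
  rw [Submodule.map_sup]
  exact sup_le_sup h1 h2

/-- a subspace of prescribed finrank inside a subspace -/
lemma exists_sub_finrank {F : Type u} [Field F] {V : Type*} [AddCommGroup V] [Module F V]
    [FiniteDimensional F V] (T : Submodule F V) (k : ℕ) (hk : k ≤ Module.finrank F T) :
    ∃ W : Submodule F V, W ≤ T ∧ Module.finrank F W = k := by
  obtain ⟨f, hf⟩ := exists_linearIndependent_of_le_finrank hk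
  have hf' : LinearIndependent F (fun j => ((f j : T) : V)) :=
    hf.map' T.subtype (Submodule.ker_subtype T)
  refine ⟨Submodule.span F (Set.range (fun j => ((f j : T) : V))), ?_, ?_⟩
  · rw [Submodule.span_le]
    rintro _ ⟨j, rfl⟩
    exact (f j).2
  · rw [finrank_span_eq_card hf', Fintype.card_fin]

/-- arithmetic core -/
lemma arith (d m i f β t : ℕ) (hn : f + β * (2 * i) = 2 * d) (hm : m ≤ d) (ht : 2 * t = f)
    (hl : 2 * (m % i) ≤ (2 * d) % (2 * i)) :
    i * min β (m / i) ≤ m ∧ m - i * min β (m / i) ≤ t := by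
  have hA : i * (m / i) + m % i = m := Nat.div_add_mod m i
  have hk : (2 * d) % (2 * i) ≤ f := by
    rw [← hn, Nat.add_mul_mod_self_right]
    exact Nat.mod_le f (2 * i)
  have hj2 : β * (2 * i) = 2 * (i * β) := by ring
  rcases Nat.le_total β (m / i) with h | h
  · rw [Nat.min_eq_left h]
    have hle : i * β ≤ i * (m / i) := Nat.mul_le_mul_left i h
    refine ⟨by omega, by omega⟩
  · rw [Nat.min_eq_right h]
    refine ⟨by omega, by omega⟩

theorem main (hIPos : IPos.{u}) (hFixND : FixND.{u}) (hPerp : Perp.{u}) (hInvDim : InvDim.{u})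
    (hHalf : HalfOdd.{u}) (hInvSub : InvSub.{u}) (hFxType : FxType.{u}) : G1O.{u} := by
  intro F _ _ p _ _ d m hm1 hmd r _ hr2 hrp hio hile hlt x hxiso hxr
  have hfnd := hFixND F p d r hrp x hxiso hxr
  obtain ⟨E, hperp, hEnd, hinf, hdim, hstabE⟩ :=
    hPerp F d (Fx (x : Matrix (J d) (J d) F)) hfnd
  have hstabFx : Stab (x : Matrix (J d) (J d) F) (Fx (x : Matrix (J d) (J d) F)) :=
    stab_of_le_Fx' _ le_rfl
  have hEstab := hstabE x hxiso hstabFx
  have hEbot : E ⊓ Fx (x : Matrix (J d) (J d) F) = ⊥ := by rw [inf_comm]; exact hinf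
  obtain ⟨U, hUE, hUstab, hUts, hUdim⟩ :=
    hHalf F p d r hr2 hrp hio x hxiso hxr E hEstab hEnd hEbot
  have hUbot : U ⊓ Fx (x : Matrix (J d) (J d) F) = ⊥ := by
    rw [eq_bot_iff, ← hEbot]
    exact inf_le_inf_right _ hUE
  obtain ⟨β, hβ⟩ := hInvDim F p d r hrp x hxr U hUstab hUbot
  have hplus : Plus d F (Fx (x : Matrix (J d) (J d) F)) :=
    (hFxType F p d r hr2 hrp x hxiso hxr).mpr (Or.inl hio)
  obtain ⟨T, hTFx, hTts, hTdim⟩ := hplus
  have hn : Module.finrank F ↥(Fx (x : Matrix (J d) (J d) F)) +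
      β * (2 * orderOf ((Fintype.card F : ℕ) : ZMod r)) = 2 * d := by
    have h2 : β * (2 * orderOf ((Fintype.card F : ℕ) : ZMod r)) =
        2 * (orderOf ((Fintype.card F : ℕ) : ZMod r) * β) := by ring
    omega
  obtain ⟨ha1, ha2⟩ := arith d m _ _ β _ hn hmd hTdim hlt
  obtain ⟨U', hU'U, hU'stab, hU'dim⟩ := hInvSub F p d r hrp x hxr U hUstab hUbot
    (min β (m / orderOf ((Fintype.card F : ℕ) : ZMod r)))
    (by rw [hβ]; exact Nat.mul_le_mul_left _ (min_le_left _ _))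
  obtain ⟨W0, hW0T, hW0dim⟩ := exists_sub_finrank T
    (m - orderOf ((Fintype.card F : ℕ) : ZMod r) *
      min β (m / orderOf ((Fintype.card F : ℕ) : ZMod r))) ha2
  have hinf' : U' ⊓ W0 = ⊥ := by
    rw [eq_bot_iff, ← hEbot]
    exact inf_le_inf (hU'U.trans hUE) (hW0T.trans hTFx)
  refine ⟨U' ⊔ W0, ?_, ?_, stab_sup' hU'stab (stab_of_le_Fx' _ (hW0T.trans hTFx))⟩
  · have h := Submodule.finrank_sup_add_finrank_inf_eq U' W0
    rw [hinf', finrank_bot, hU'dim, hW0dim] at h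
    omega
  · intro w hw
    obtain ⟨u, hu, w0, hw0, rfl⟩ := Submodule.mem_sup.mp hw
    have hpol := hperp w0 (hTFx (hW0T hw0)) u (hUE (hU'U hu))
    have h1 : Cfsg.quadFormPlus d F u = 0 := hUts u (hU'U hu)
    have h2 : Cfsg.quadFormPlus d F w0 = 0 := hTts w0 (hW0T hw0)
    unfold QuadraticMap.polar at hpol
    rw [h1, h2, sub_zero, sub_zero, add_comm] at hpol
    exact hpol

end Cfsg.Agent.Lib.Helper11.TPG1O
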